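import Mathlib

/-!
# Graded families in a Lie ring: Kreknin's theorem and the Kostrikin–Kreknin class bound

We work inside an ambient Lie ring `Λ` with a family `L i` (`i : ZMod n`) of additive subgroups
such that `⁅L i, L j⁆ ⊆ L (i+j)` and `L 0 = ⊥` (no directness is assumed).

* `kreknin` : the additive subgroup `⨆ i, L i` is solvable of derived length `≤ 2^(n-1) - 1`.
* `class_bound` : for `n = p` prime, derived length `d` implies class `≤ ∑_{i<d} (p-1)^i`.
-/

set_option autoImplicit false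

namespace Cfsg.Agent.Lib.Helper34

section Brk

variable {Λ : Type*} [LieRing Λ]

/-- additive span of the brackets of two additive subgroups -/
def brk (A B : AddSubgroup Λ) : AddSubgroup Λ :=
  AddSubgroup.closure {z | ∃ a ∈ A, ∃ b ∈ B, ⁅a, b⁆ = z}

theorem lie_mem_brk {A B : AddSubgroup Λ} {a b : Λ} (ha : a ∈ A) (hb : b ∈ B) :
    ⁅a, b⁆ ∈ brk A B :=
  AddSubgroup.subset_closure ⟨a, ha, b, hb, rfl⟩

theorem brk_le {A B C : AddSubgroup Λ} : brk A B ≤ C ↔ ∀ a ∈ A, ∀ b ∈ B, ⁅a, b⁆ ∈ C := by
  constructor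
  · intro h a ha b hb
    exact h (lie_mem_brk ha hb)
  · intro h
    rw [brk, AddSubgroup.closure_le]
    rintro z ⟨a, ha, b, hb, rfl⟩
    exact h a ha b hb

theorem brk_mono {A A' B B' : AddSubgroup Λ} (hA : A ≤ A') (hB : B ≤ B') :
    brk A B ≤ brk A' B' :=
  brk_le.mpr fun _ ha _ hb => lie_mem_brk (hA ha) (hB hb)

theorem brk_iSup_le {ι κ : Sort*} {A : ι → AddSubgroup Λ} {B : κ → AddSubgroup Λ}
    {C : AddSubgroup Λ} (h : ∀ i j, ∀ a ∈ A i, ∀ b ∈ B j, ⁅a, b⁆ ∈ C) :
    brk (⨆ i, A i) (⨆ j, B j) ≤ C := by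
  rw [brk_le]
  intro a ha b hb
  refine AddSubgroup.iSup_induction A (C := fun a => ⁅a, b⁆ ∈ C) ha ?_ ?_ ?_
  · intro i a ha
    refine AddSubgroup.iSup_induction B (C := fun b => ⁅a, b⁆ ∈ C) hb ?_ ?_ ?_
    · intro j b hb
      exact h i j a ha b hb
    · rw [lie_zero]; exact C.zero_mem
    · intro x y hx hy
      rw [lie_add]; exact C.add_mem hx hy
  · rw [zero_lie]; exact C.zero_mem
  · intro x y hx hy
    rw [add_lie]; exact C.add_mem hx hy

/-- derived series of an additive subgroup -/
def dser (S : AddSubgroup Λ) : ℕ → AddSubgroup Λ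
  | 0 => S
  | k + 1 => brk (dser S k) (dser S k)

theorem dser_zero (S : AddSubgroup Λ) : dser S 0 = S := rfl

theorem dser_succ (S : AddSubgroup Λ) (k : ℕ) :
    dser S (k + 1) = brk (dser S k) (dser S k) := rfl

theorem dser_add (S : AddSubgroup Λ) (a b : ℕ) : dser S (a + b) = dser (dser S a) b := by
  induction b with
  | zero => rfl
  | succ b ih => rw [← add_assoc, dser_succ, dser_succ, ih]

theorem dser_mono {S S' : AddSubgroup Λ} (h : S ≤ S') (k : ℕ) : dser S k ≤ dser S' k := by
  induction k with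
  | zero => exact h
  | succ k ih => exact brk_mono ih ih

theorem dser_bot (k : ℕ) : dser (⊥ : AddSubgroup Λ) k = ⊥ := by
  induction k with
  | zero => rfl
  | succ k ih =>
    rw [dser_succ, ih, eq_bot_iff, brk_le]
    intro a ha b _
    rw [AddSubgroup.mem_bot] at ha
    rw [ha, zero_lie]
    exact AddSubgroup.zero_mem _

/-- iterated bracket with `S` on the right -/
def brkN (A S : AddSubgroup Λ) : ℕ → AddSubgroup Λ
  | 0 => A
  | m + 1 => brk (brkN A S m) S

theorem brkN_zero (A S : AddSubgroup Λ) : brkN A S 0 = A := rfl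

theorem brkN_succ (A S : AddSubgroup Λ) (m : ℕ) : brkN A S (m + 1) = brk (brkN A S m) S := rfl

theorem brkN_add (A S : AddSubgroup Λ) (a b : ℕ) :
    brkN A S (a + b) = brkN (brkN A S a) S b := by
  induction b with
  | zero => rfl
  | succ b ih => rw [← add_assoc, brkN_succ, brkN_succ, ih]

theorem brkN_succ' (A S : AddSubgroup Λ) (m : ℕ) : brkN A S (m + 1) = brkN (brk A S) S m := by
  rw [add_comm, brkN_add]
  rfl

theorem brkN_mono {A A' : AddSubgroup Λ} (S : AddSubgroup Λ) (h : A ≤ A') (m : ℕ) :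
    brkN A S m ≤ brkN A' S m := by
  induction m with
  | zero => exact h
  | succ m ih => exact brk_mono ih le_rfl

/-- lower central series of an additive subgroup: `lcsA S c` is `γ_{c+1}` -/
def lcsA (S : AddSubgroup Λ) (c : ℕ) : AddSubgroup Λ := brkN S S c

theorem lcsA_zero (S : AddSubgroup Λ) : lcsA S 0 = S := rfl

theorem lcsA_succ (S : AddSubgroup Λ) (c : ℕ) : lcsA S (c + 1) = brk (lcsA S c) S := rfl

theorem lcsA_add (S : AddSubgroup Λ) (a b : ℕ) : lcsA S (a + b) = brkN (lcsA S a) S b :=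
  brkN_add S S a b

/-- left-normed iterated bracket along a plain list -/
def blist (u : Λ) (l : List Λ) : Λ := l.foldl (fun acc x => ⁅acc, x⁆) u

@[simp] theorem blist_nil (u : Λ) : blist u [] = u := rfl

@[simp] theorem blist_cons (u x : Λ) (l : List Λ) : blist u (x :: l) = blist ⁅u, x⁆ l := rfl

theorem blist_mem_brkN {S : AddSubgroup Λ} :
    ∀ (l : List Λ) (A : AddSubgroup Λ) (u : Λ), u ∈ A → (∀ x ∈ l, x ∈ S) →
      blist u l ∈ brkN A S l.length := by
  intro l
  induction l with
  | nil => intro A u hu _; exact hu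
  | cons x l ih =>
    intro A u hu hl
    rw [blist_cons, List.length_cons, brkN_succ']
    exact ih (brk A S) ⁅u, x⁆ (lie_mem_brk hu (hl x (by simp))) (fun y hy => hl y (by simp [hy]))

/-- elementwise criterion: if all iterated brackets of length `m` land in `B`, then
`brkN A S m ≤ B`. -/
theorem brkN_le_of_blist {S B : AddSubgroup Λ} :
    ∀ (m : ℕ) (A : AddSubgroup Λ),
      (∀ u ∈ A, ∀ l : List Λ, l.length = m → (∀ x ∈ l, x ∈ S) → blist u l ∈ B) →
      brkN A S m ≤ B := by
  intro m
  induction m with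
  | zero =>
    intro A h u hu
    exact h u hu [] rfl (by simp)
  | succ m ih =>
    intro A h
    rw [brkN_succ']
    refine ih (brk A S) ?_
    intro w hw
    refine AddSubgroup.closure_induction
      (p := fun w _ => ∀ l : List Λ, l.length = m → (∀ x ∈ l, x ∈ S) → blist w l ∈ B)
      ?_ ?_ ?_ ?_ hw
    · rintro z ⟨u, hu, x, hx, rfl⟩ l hl hlS
      have := h u hu (x :: l) (by simp [hl]) (by
        intro y hy
        rcases List.mem_cons.mp hy with rfl | hy
        · exact hx
        · exact hlS y hy)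
      simpa using this
    · intro l _ _
      have : ∀ l : List Λ, blist (0 : Λ) l = 0 := by
        intro l
        induction l with
        | nil => rfl
        | cons x l ih => rw [blist_cons, zero_lie, ih]
      rw [this]; exact B.zero_mem
    · intro x y _ _ hx hy l hl hlS
      have : ∀ (l : List Λ) (x y : Λ), blist (x + y) l = blist x l + blist y l := by
        intro l
        induction l with
        | nil => intro x y; rfl
        | cons z l ih => intro x y; rw [blist_cons, add_lie, ih]; rfl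
      rw [this]; exact B.add_mem (hx l hl hlS) (hy l hl hlS)
    · intro x _ hx l hl hlS
      have : ∀ (l : List Λ) (x : Λ), blist (-x) l = -blist x l := by
        intro l
        induction l with
        | nil => intro x; rfl
        | cons z l ih => intro x; rw [blist_cons, neg_lie, ih]; rfl
      rw [this]; exact B.neg_mem (hx l hl hlS)

end Brk

section Fam

variable {Λ : Type*} [LieRing Λ] {n : ℕ}

/-- a "graded family": additive subgroups indexed by `ZMod n`, compatible with the bracket,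
with trivial zero component (no directness assumed) -/
structure GFam (n : ℕ) (Λ : Type*) [LieRing Λ] where
  comp : ZMod n → AddSubgroup Λ
  lie_mem' : ∀ {i j : ZMod n} {x y : Λ}, x ∈ comp i → y ∈ comp j → ⁅x, y⁆ ∈ comp (i + j)
  zero' : comp 0 = ⊥

/-- the sum of the components -/
def GFam.tot (L : GFam n Λ) : AddSubgroup Λ := ⨆ i, L.comp i

theorem GFam.comp_le_tot (L : GFam n Λ) (i : ZMod n) : L.comp i ≤ L.tot :=
  le_iSup L.comp i

theorem GFam.eq_zero_of_mem_zero (L : GFam n Λ) {x : Λ} (hx : x ∈ L.comp 0) : x = 0 := by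
  rw [L.zero'] at hx
  simpa using hx

theorem GFam.der_aux (M : GFam n Λ) (j : ZMod n) :
    (⨆ a : ZMod n, brk (M.comp a) (M.comp (j - a))) ≤ M.comp j := by
  refine iSup_le fun a => brk_le.mpr fun x hx y hy => ?_
  have := M.lie_mem' hx hy
  rwa [add_sub_cancel] at this

/-- the derived family -/
def GFam.der (M : GFam n Λ) : GFam n Λ where
  comp j := ⨆ a : ZMod n, brk (M.comp a) (M.comp (j - a))
  lie_mem' := by
    intro i j x y hx hy
    have hx' := M.der_aux i hx
    have hy' := M.der_aux j hy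
    have h1 : ⁅x, y⁆ ∈ brk (M.comp i) (M.comp (i + j - i)) := by
      rw [add_sub_cancel_left]
      exact lie_mem_brk hx' hy'
    exact (le_iSup (fun a : ZMod n => brk (M.comp a) (M.comp (i + j - a))) i) h1
  zero' := by
    rw [eq_bot_iff, ← M.zero']
    exact M.der_aux 0

theorem GFam.der_comp_le (M : GFam n Λ) (j : ZMod n) : M.der.comp j ≤ M.comp j :=
  M.der_aux j

theorem GFam.der_tot (M : GFam n Λ) : M.der.tot = brk M.tot M.tot := by
  apply le_antisymm
  · refine iSup_le fun j => iSup_le fun a => ?_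
    exact brk_mono (M.comp_le_tot a) (M.comp_le_tot _)
  · refine brk_iSup_le ?_
    intro i j a ha b hb
    have h1 : ⁅a, b⁆ ∈ brk (M.comp i) (M.comp (i + j - i)) := by
      rw [add_sub_cancel_left]
      exact lie_mem_brk ha hb
    exact (M.der.comp_le_tot (i + j))
      ((le_iSup (fun a : ZMod n => brk (M.comp a) (M.comp (i + j - a))) i) h1)

/-- the family generated by the components of index `> k` -/
inductive Gen (L : GFam n Λ) (k : ℕ) : ZMod n → Λ → Prop
  | base (j : ZMod n) (x : Λ) : k < j.val → x ∈ L.comp j → Gen L k j x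
  | zero (a : ZMod n) : Gen L k a 0
  | add (a : ZMod n) (x y : Λ) : Gen L k a x → Gen L k a y → Gen L k a (x + y)
  | neg (a : ZMod n) (x : Λ) : Gen L k a x → Gen L k a (-x)
  | lie (a b : ZMod n) (x y : Λ) : Gen L k a x → Gen L k b y → Gen L k (a + b) ⁅x, y⁆

theorem Gen.mem_comp {L : GFam n Λ} {k : ℕ} {a : ZMod n} {x : Λ} (h : Gen L k a x) :
    x ∈ L.comp a := by
  induction h with
  | base j x _ hx => exact hx
  | zero a => exact AddSubgroup.zero_mem _
  | add a x y _ _ ihx ihy => exact AddSubgroup.add_mem _ ihx ihy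
  | neg a x _ ihx => exact AddSubgroup.neg_mem _ ihx
  | lie a b x y _ _ ihx ihy => exact L.lie_mem' ihx ihy

/-- the subfamily generated by the components of index `> k` -/
def GFam.U (L : GFam n Λ) (k : ℕ) : GFam n Λ where
  comp a :=
    { carrier := {x | Gen L k a x}
      zero_mem' := Gen.zero a
      add_mem' := fun hx hy => Gen.add _ _ _ hx hy
      neg_mem' := fun hx => Gen.neg _ _ hx }
  lie_mem' := fun hx hy => Gen.lie _ _ _ _ hx hy
  zero' := by
    rw [eq_bot_iff]
    intro x hx
    have h : Gen L k 0 x := hx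
    rw [AddSubgroup.mem_bot]
    exact L.eq_zero_of_mem_zero h.mem_comp

theorem GFam.mem_U {L : GFam n Λ} {k : ℕ} {a : ZMod n} {x : Λ} :
    x ∈ (L.U k).comp a ↔ Gen L k a x := Iff.rfl

theorem gen_Q [NeZero n] {L : GFam n Λ} {k : ℕ} :
    ∀ {a : ZMod n} {x : Λ}, Gen L k a x → ∀ {b : ZMod n} {y : Λ}, Gen L k b y →
      (a + b).val = k + 1 → Gen L (k + 1) (a + b) ⁅x, y⁆ := by
  intro a x hx
  induction hx with
  | base j x hj hx =>
    intro b y hy hab
    have hyL := hy.mem_comp
    rcases Nat.lt_or_ge (k + 1) j.val with h | h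
    · have hb : k + 1 < b.val := by
        have h1 := ZMod.val_lt j
        have h2 := ZMod.val_lt b
        rw [ZMod.val_add] at hab
        by_contra hcon
        rcases Nat.lt_or_ge (j.val + b.val) n with h3 | h3
        · rw [Nat.mod_eq_of_lt h3] at hab; omega
        · have h4 : (j.val + b.val) % n = j.val + b.val - n := by
            rw [Nat.mod_eq_sub_mod h3, Nat.mod_eq_of_lt (by omega)]
          omega
      exact Gen.lie _ _ _ _ (Gen.base j x h hx) (Gen.base b y hb hyL)
    · have hj' : j.val = k + 1 := by omega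
      have hb0 : b = 0 := by
        have h5 : (j + b).val = j.val := by rw [hab, hj']
        have h6 := ZMod.val_injective n h5
        simpa using h6
      subst hb0
      have hy0 : y = 0 := L.eq_zero_of_mem_zero hyL
      subst hy0
      rw [lie_zero]
      exact Gen.zero _
  | zero a =>
    intro b y _ _
    rw [zero_lie]; exact Gen.zero _
  | add a x x' _ _ ihx ihx' =>
    intro b y hy hab
    rw [add_lie]; exact Gen.add _ _ _ (ihx hy hab) (ihx' hy hab)
  | neg a x _ ihx =>
    intro b y hy hab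
    rw [neg_lie]; exact Gen.neg _ _ (ihx hy hab)
  | lie c d u v hu hv ihu ihv =>
    intro b y hy hab
    rw [lie_lie]
    have e1 : c + (d + b) = c + d + b := by ring
    have e2 : d + (c + b) = c + d + b := by ring
    have h1 : Gen L (k + 1) (c + (d + b)) ⁅u, ⁅v, y⁆⁆ :=
      ihu (Gen.lie _ _ _ _ hv hy) (by rw [e1]; exact hab)
    have h2 : Gen L (k + 1) (d + (c + b)) ⁅v, ⁅u, y⁆⁆ :=
      ihv (Gen.lie _ _ _ _ hu hy) (by rw [e2]; exact hab)
    rw [e1] at h1
    rw [e2] at h2
    rw [sub_eq_add_neg]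
    exact Gen.add _ _ _ h1 (Gen.neg _ _ h2)

theorem gen_step [NeZero n] {L : GFam n Λ} {k : ℕ} :
    ∀ {a : ZMod n} {x : Λ}, Gen (L.U k).der k a x → Gen L (k + 1) a x := by
  intro a x hx
  induction hx with
  | base j x hj hx =>
    rcases Nat.lt_or_ge (k + 1) j.val with h | h
    · refine Gen.base j x h ?_
      have h1 : x ∈ (L.U k).comp j := (L.U k).der_comp_le j hx
      exact (GFam.mem_U.mp h1).mem_comp
    · have hj' : j.val = k + 1 := by omega
      have hx' : x ∈ ⨆ a : ZMod n, brk ((L.U k).comp a) ((L.U k).comp (j - a)) := hx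
      refine AddSubgroup.iSup_induction _ (C := fun x => Gen L (k + 1) j x) hx' ?_ (Gen.zero _)
        (fun x y hx hy => Gen.add _ _ _ hx hy)
      intro a x hx
      refine AddSubgroup.closure_induction (p := fun x _ => Gen L (k + 1) j x) ?_ (Gen.zero _)
        (fun x y _ _ hx hy => Gen.add _ _ _ hx hy) (fun x _ hx => Gen.neg _ _ hx) hx
      rintro z ⟨u, hu, v, hv, rfl⟩
      have h1 := gen_Q (GFam.mem_U.mp hu) (GFam.mem_U.mp hv) (by rw [add_sub_cancel]; exact hj')
      rwa [add_sub_cancel] at h1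
  | zero a => exact Gen.zero _
  | add a x y _ _ ihx ihy => exact Gen.add _ _ _ ihx ihy
  | neg a x _ ihx => exact Gen.neg _ _ ihx
  | lie a b x y _ _ ihx ihy => exact Gen.lie _ _ _ _ ihx ihy

theorem kreknin_aux [NeZero n] :
    ∀ k : ℕ, ∀ L : GFam n Λ, dser L.tot (2 ^ k - 1) ≤ (L.U k).tot := by
  intro k
  induction k with
  | zero =>
    intro L
    simp only [pow_zero, Nat.sub_self, dser_zero]
    refine iSup_le fun i => ?_
    by_cases hi : i = 0
    · subst hi; rw [L.zero']; exact bot_le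
    · intro x hx
      refine (L.U 0).comp_le_tot i ?_
      exact Gen.base i x (Nat.pos_of_ne_zero (fun h => hi ((ZMod.val_eq_zero i).mp h))) hx
  | succ k ih =>
    intro L
    have h1 := ih L
    have hpos : 1 ≤ 2 ^ k := Nat.one_le_two_pow
    have h2 : dser L.tot (2 ^ k) ≤ (L.U k).der.tot := by
      have h3 : dser L.tot (2 ^ k) = brk (dser L.tot (2 ^ k - 1)) (dser L.tot (2 ^ k - 1)) := by
        have h4 : 2 ^ k = (2 ^ k - 1) + 1 := by omega
        conv_lhs => rw [h4]
        rfl
      rw [h3, GFam.der_tot]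
      exact brk_mono h1 h1
    have h3 : dser L.tot (2 ^ (k + 1) - 1) = dser (dser L.tot (2 ^ k)) (2 ^ k - 1) := by
      rw [← dser_add]
      congr 1
      rw [pow_succ]; omega
    rw [h3]
    refine (dser_mono h2 _).trans ((ih _).trans ?_)
    refine iSup_le fun a => ?_
    intro x hx
    exact (L.U (k + 1)).comp_le_tot a (gen_step (GFam.mem_U.mp hx))

/-- **Kreknin's theorem** (graded-family form): a `ZMod n`-graded family with trivial zero
component spans a subgroup that is solvable of derived length at most `2^(n-1) - 1`. -/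
theorem kreknin [NeZero n] (L : GFam n Λ) : dser L.tot (2 ^ (n - 1) - 1) = ⊥ := by
  rw [eq_bot_iff]
  refine (kreknin_aux (n - 1) L).trans ?_
  refine iSup_le fun a => ?_
  intro x hx
  have h : Gen L (n - 1) a x := hx
  rw [AddSubgroup.mem_bot]
  clear hx
  induction h with
  | base j x hj _ =>
    have := ZMod.val_lt j
    omega
  | zero a => rfl
  | add a x y _ _ ihx ihy => rw [ihx, ihy, add_zero]
  | neg a x _ ihx => rw [ihx, neg_zero]
  | lie a b x y _ _ ihx _ => rw [ihx, zero_lie]

end Fam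

section Engel

variable {Λ : Type*} [LieRing Λ] {n : ℕ}

/-- left-normed bracket along a list of degree-tagged elements -/
def bl (u : Λ) (l : List (ZMod n × Λ)) : Λ := l.foldl (fun acc bx => ⁅acc, bx.2⁆) u

@[simp] theorem bl_nil (u : Λ) : bl u ([] : List (ZMod n × Λ)) = u := rfl

@[simp] theorem bl_cons (u : Λ) (bx : ZMod n × Λ) (l : List (ZMod n × Λ)) :
    bl u (bx :: l) = bl ⁅u, bx.2⁆ l := rfl

theorem bl_zero (l : List (ZMod n × Λ)) : bl (0 : Λ) l = 0 := by
  induction l with
  | nil => rfl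
  | cons x l ih => rw [bl_cons, zero_lie, ih]

theorem bl_add (l : List (ZMod n × Λ)) : ∀ x y : Λ, bl (x + y) l = bl x l + bl y l := by
  induction l with
  | nil => intro x y; rfl
  | cons z l ih => intro x y; rw [bl_cons, add_lie, ih]; rfl

theorem bl_neg (l : List (ZMod n × Λ)) : ∀ x : Λ, bl (-x) l = -bl x l := by
  induction l with
  | nil => intro x; rfl
  | cons z l ih => intro x; rw [bl_cons, neg_lie, ih]; rfl

theorem bl_sub (l : List (ZMod n × Λ)) (x y : Λ) : bl (x - y) l = bl x l - bl y l := by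
  rw [sub_eq_add_neg, bl_add, bl_neg, ← sub_eq_add_neg]

/-- a tagged list is homogeneous w.r.t. a family -/
def Homog (L : GFam n Λ) (l : List (ZMod n × Λ)) : Prop := ∀ bx ∈ l, bx.2 ∈ L.comp bx.1

theorem Homog.tail {L : GFam n Λ} {bx : ZMod n × Λ} {l : List (ZMod n × Λ)}
    (h : Homog L (bx :: l)) : Homog L l := fun y hy => h y (List.mem_cons_of_mem _ hy)

theorem Homog.head {L : GFam n Λ} {bx : ZMod n × Λ} {l : List (ZMod n × Λ)}
    (h : Homog L (bx :: l)) : bx.2 ∈ L.comp bx.1 := h bx (by simp)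

/-- subset sums of the degrees of a tagged list -/
def SS : List (ZMod n × Λ) → Finset (ZMod n)
  | [] => {0}
  | bx :: l => SS l ∪ (SS l).image (fun s => bx.1 + s)

omit [LieRing Λ] in
theorem zero_mem_SS (l : List (ZMod n × Λ)) : (0 : ZMod n) ∈ SS l := by
  induction l with
  | nil => simp [SS]
  | cons bx l ih => simp [SS, ih]

/-- hypotheses of the Engel-type lemma -/
structure EngelData (L : GFam n Λ) (M : ZMod n → AddSubgroup Λ) (B : AddSubgroup Λ) : Prop where
  h1 : M 0 ≤ B
  h2 : ∀ {a b : ZMod n} {m x : Λ}, m ∈ M a → x ∈ L.comp b → ⁅m, x⁆ ∈ M (a + b)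
  h3 : ∀ {b : ZMod n} {u x : Λ}, u ∈ B → x ∈ L.comp b → ⁅u, x⁆ ∈ B
  h4 : ∀ {a b c : ZMod n} {m x y : Λ}, m ∈ M a → x ∈ L.comp b → y ∈ L.comp c →
    ⁅⁅m, x⁆, y⁆ - ⁅⁅m, y⁆, x⁆ ∈ B

theorem EngelData.bl_mem {L : GFam n Λ} {M : ZMod n → AddSubgroup Λ} {B : AddSubgroup Λ}
    (E : EngelData L M B) : ∀ l : List (ZMod n × Λ), Homog L l → ∀ u ∈ B, bl u l ∈ B := by
  intro l
  induction l with
  | nil => intro _ u hu; exact hu
  | cons bx l ih =>
    intro hl u hu
    rw [bl_cons]
    exact ih hl.tail _ (E.h3 hu hl.head)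

theorem EngelData.move {L : GFam n Λ} {M : ZMod n → AddSubgroup Λ} {B : AddSubgroup Λ}
    (E : EngelData L M B) {b : ZMod n} {x : Λ} (hx : x ∈ L.comp b) :
    ∀ l : List (ZMod n × Λ), Homog L l → ∀ (a : ZMod n) (m : Λ), m ∈ M a →
      bl ⁅m, x⁆ l - ⁅bl m l, x⁆ ∈ B := by
  intro l
  induction l with
  | nil =>
    intro _ a m _
    simp only [bl_nil, sub_self]
    exact B.zero_mem
  | cons cy l ih =>
    intro hl a m hm
    rw [bl_cons, bl_cons]
    have h1 := ih hl.tail (a + cy.1) ⁅m, cy.2⁆ (E.h2 hm hl.head)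
    have h2 : bl (⁅⁅m, x⁆, cy.2⁆ - ⁅⁅m, cy.2⁆, x⁆) l ∈ B :=
      E.bl_mem l hl.tail _ (E.h4 hm hx hl.head)
    rw [bl_sub] at h2
    have h3 := B.add_mem h2 h1
    have e : bl ⁅⁅m, x⁆, cy.2⁆ l - bl ⁅⁅m, cy.2⁆, x⁆ l + (bl ⁅⁅m, cy.2⁆, x⁆ l - ⁅bl ⁅m, cy.2⁆ l, x⁆)
        = bl ⁅⁅m, x⁆, cy.2⁆ l - ⁅bl ⁅m, cy.2⁆ l, x⁆ := by abel
    rwa [e] at h3

theorem EngelData.core {L : GFam n Λ} {M : ZMod n → AddSubgroup Λ} {B : AddSubgroup Λ}
    (E : EngelData L M B) : ∀ l : List (ZMod n × Λ), Homog L l → ∀ (a : ZMod n) (m : Λ),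
      m ∈ M a → -a ∈ SS l → bl m l ∈ B := by
  intro l
  induction l with
  | nil =>
    intro _ a m hm ha
    simp only [SS, Finset.mem_singleton, neg_eq_zero] at ha
    subst ha
    exact E.h1 hm
  | cons bx l ih =>
    intro hl a m hm ha
    rw [bl_cons]
    simp only [SS, Finset.mem_union, Finset.mem_image] at ha
    rcases ha with ha | ⟨s, hs, hsa⟩
    · have h1 := ih hl.tail a m hm ha
      have h2 := E.h3 h1 hl.head
      have h3 := E.move hl.head l hl.tail a m hm
      have h4 := B.add_mem h3 h2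
      rwa [sub_add_cancel] at h4
    · refine ih hl.tail (a + bx.1) ⁅m, bx.2⁆ (E.h2 hm hl.head) ?_
      have : -(a + bx.1) = s := by rw [neg_add, ← hsa]; abel
      rw [this]; exact hs

/-- multilinear predicate: all `m`-fold brackets with homogeneous elements land in `B` -/
def QP (L : GFam n Λ) (B : AddSubgroup Λ) : ℕ → Λ → Prop
  | 0, u => u ∈ B
  | m + 1, u => ∀ b : ZMod n, ∀ x ∈ L.comp b, QP L B m ⁅u, x⁆

theorem QP_zero (L : GFam n Λ) (B : AddSubgroup Λ) : ∀ m : ℕ, QP L B m 0 := by
  intro m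
  induction m with
  | zero => exact B.zero_mem
  | succ m ih => intro b x _; rw [zero_lie]; exact ih

theorem QP_add (L : GFam n Λ) (B : AddSubgroup Λ) :
    ∀ (m : ℕ) (u v : Λ), QP L B m u → QP L B m v → QP L B m (u + v) := by
  intro m
  induction m with
  | zero => intro u v hu hv; exact B.add_mem hu hv
  | succ m ih =>
    intro u v hu hv b x hx
    rw [add_lie]
    exact ih _ _ (hu b x hx) (hv b x hx)

theorem QP_neg (L : GFam n Λ) (B : AddSubgroup Λ) :
    ∀ (m : ℕ) (u : Λ), QP L B m u → QP L B m (-u) := by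
  intro m
  induction m with
  | zero => intro u hu; exact B.neg_mem hu
  | succ m ih =>
    intro u hu b x hx
    rw [neg_lie]
    exact ih _ (hu b x hx)

theorem QP_tot {L : GFam n Λ} {B : AddSubgroup Λ} {m : ℕ} {u : Λ} (h : QP L B (m + 1) u) :
    ∀ x ∈ L.tot, QP L B m ⁅u, x⁆ := by
  intro x hx
  refine AddSubgroup.iSup_induction L.comp (C := fun x => QP L B m ⁅u, x⁆) hx ?_ ?_ ?_
  · intro b x hx; exact h b x hx
  · rw [lie_zero]; exact QP_zero L B m
  · intro x y hx hy; rw [lie_add]; exact QP_add L B m _ _ hx hy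

theorem QP_blist {L : GFam n Λ} {B : AddSubgroup Λ} :
    ∀ (m : ℕ) (u : Λ), QP L B m u → ∀ l : List Λ, l.length = m → (∀ x ∈ l, x ∈ L.tot) →
      blist u l ∈ B := by
  intro m
  induction m with
  | zero =>
    intro u hu l hl _
    rw [List.length_eq_zero_iff] at hl
    subst hl
    exact hu
  | succ m ih =>
    intro u hu l hl hlS
    cases l with
    | nil => simp at hl
    | cons x l =>
      rw [blist_cons]
      exact ih _ (QP_tot hu x (hlS x (by simp))) l (by simpa using hl)
        (fun y hy => hlS y (by simp [hy]))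

theorem brkN_le_of_QP {L : GFam n Λ} {A B : AddSubgroup Λ} {m : ℕ}
    (h : ∀ u ∈ A, QP L B m u) : brkN A L.tot m ≤ B :=
  brkN_le_of_blist m A (fun u hu l hl hlS => QP_blist m u (h u hu) l hl hlS)

theorem QP_iSup {L : GFam n Λ} {B : AddSubgroup Λ} {m : ℕ} {ι : Sort*} {M : ι → AddSubgroup Λ}
    (h : ∀ a, ∀ u ∈ M a, QP L B m u) : ∀ u ∈ ⨆ a, M a, QP L B m u := by
  intro u hu
  exact AddSubgroup.iSup_induction M (C := fun u => QP L B m u) hu h (QP_zero L B m)
    (fun x y hx hy => QP_add L B m x y hx hy)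

theorem QP_of_bl {L : GFam n Λ} {B : AddSubgroup Λ} :
    ∀ (m : ℕ) (u : Λ),
      (∀ l : List (ZMod n × Λ), Homog L l → (∀ bx ∈ l, bx.1 ≠ 0) → l.length = m → bl u l ∈ B) →
      QP L B m u := by
  intro m
  induction m with
  | zero =>
    intro u h
    exact h [] (by intro bx hbx; simp at hbx) (by intro bx hbx; simp at hbx) rfl
  | succ m ih =>
    intro u h b x hx
    by_cases hb : b = 0
    · subst hb
      rw [L.eq_zero_of_mem_zero hx, lie_zero]
      exact QP_zero L B m
    · refine ih _ ?_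
      intro l hl hl0 hlen
      have := h ((b, x) :: l) (by
        intro bx hbx
        rcases List.mem_cons.mp hbx with rfl | hbx
        · exact hx
        · exact hl bx hbx) (by
        intro bx hbx
        rcases List.mem_cons.mp hbx with rfl | hbx
        · exact hb
        · exact hl0 bx hbx) (by simp [hlen])
      simpa using this

end Engel

section Prime

variable {Λ : Type*} [LieRing Λ] {p : ℕ} [Fact p.Prime]

omit [LieRing Λ] in
theorem SS_card (l : List (ZMod p × Λ)) (hl : ∀ bx ∈ l, bx.1 ≠ 0) :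
    min p (l.length + 1) ≤ (SS l).card := by
  induction l with
  | nil => simp [SS]
  | cons bx l ih =>
    have ih' := ih (fun y hy => hl y (List.mem_cons_of_mem _ hy))
    have hb : bx.1 ≠ 0 := hl bx (by simp)
    by_cases huniv : SS l = Finset.univ
    · have : SS (bx :: l) = Finset.univ := by
        simp only [SS, huniv]
        exact Finset.eq_univ_of_forall (fun x => Finset.mem_union_left _ (Finset.mem_univ x))
      rw [this, Finset.card_univ, ZMod.card]
      exact min_le_left _ _
    · have hnot : ¬ ((SS l).image (fun s => bx.1 + s) ⊆ SS l) := by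
        intro hsub
        apply huniv
        have hk : ∀ k : ℕ, (k : ZMod p) * bx.1 ∈ SS l := by
          intro k
          induction k with
          | zero => simpa using zero_mem_SS l
          | succ k ihk =>
            have := hsub (Finset.mem_image_of_mem (fun s => bx.1 + s) ihk)
            have e : bx.1 + (k : ZMod p) * bx.1 = ((k + 1 : ℕ) : ZMod p) * bx.1 := by
              push_cast; ring
            rwa [e] at this
        refine Finset.eq_univ_of_forall (fun z => ?_)
        have h1 := hk (z * bx.1⁻¹).val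
        rw [ZMod.natCast_zmod_val, mul_assoc, inv_mul_cancel₀ hb, mul_one] at h1
        exact h1
      have hss : SS l ⊂ SS (bx :: l) := by
        rw [Finset.ssubset_iff_subset_ne]
        refine ⟨Finset.subset_union_left, ?_⟩
        intro heq
        apply hnot
        intro x hx
        rw [heq]
        exact Finset.mem_union_right _ hx
      have hlt := Finset.card_lt_card hss
      have : (bx :: l).length = l.length + 1 := List.length_cons
      rw [this]
      omega

omit [LieRing Λ] in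
theorem SS_univ (l : List (ZMod p × Λ)) (hl : ∀ bx ∈ l, bx.1 ≠ 0) (hlen : p - 1 ≤ l.length) :
    SS l = Finset.univ := by
  have h1 := SS_card l hl
  have hp : 1 ≤ p := (Fact.out : p.Prime).one_lt.le
  have h2 : p ≤ (SS l).card := by
    have : min p (l.length + 1) = p := min_eq_left (by omega)
    rwa [this] at h1
  apply Finset.eq_univ_of_card
  have h3 := Finset.card_le_univ (SS l)
  rw [ZMod.card] at h3 ⊢
  omega

theorem EngelData.QP {L : GFam p Λ} {M : ZMod p → AddSubgroup Λ} {B : AddSubgroup Λ}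
    (E : EngelData L M B) {a : ZMod p} {m : Λ} (hm : m ∈ M a) : QP L B (p - 1) m := by
  refine QP_of_bl (p - 1) m ?_
  intro l hl hl0 hlen
  refine E.core l hl a m hm ?_
  rw [SS_univ l hl0 (by omega)]
  exact Finset.mem_univ _

/-- homogeneous components of the lower central series of a family -/
def lcsFam {n : ℕ} (T : GFam n Λ) : ℕ → ZMod n → AddSubgroup Λ
  | 0 => T.comp
  | i + 1 => fun a => ⨆ b : ZMod n, brk (lcsFam T i b) (T.comp (a - b))

theorem lcsFam_tot {n : ℕ} (T : GFam n Λ) (i : ℕ) : (⨆ a, lcsFam T i a) = lcsA T.tot i := by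
  induction i with
  | zero => rfl
  | succ i ih =>
    rw [lcsA_succ, ← ih]
    apply le_antisymm
    · refine iSup_le fun a => iSup_le fun b => ?_
      exact brk_mono (le_iSup (lcsFam T i) b) (T.comp_le_tot _)
    · refine brk_iSup_le ?_
      intro b c m hm t ht
      have h1 : ⁅m, t⁆ ∈ brk (lcsFam T i b) (T.comp (b + c - b)) := by
        rw [add_sub_cancel_left]
        exact lie_mem_brk hm ht
      exact (le_iSup (lcsFam T (i + 1)) (b + c))
        ((le_iSup (fun b' : ZMod n => brk (lcsFam T i b') (T.comp (b + c - b'))) b) h1)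

theorem lcsFam_le_comp {n : ℕ} (T : GFam n Λ) (i : ℕ) : ∀ a, lcsFam T i a ≤ T.comp a := by
  induction i with
  | zero => intro a; exact le_rfl
  | succ i ih =>
    intro a
    refine iSup_le fun b => brk_le.mpr fun m hm t ht => ?_
    have := T.lie_mem' (ih b hm) ht
    rwa [add_sub_cancel] at this

theorem der_lie {n : ℕ} (L : GFam n Λ) {a b : ZMod n} {m x : Λ} (hm : m ∈ L.der.comp a)
    (hx : x ∈ L.comp b) : ⁅m, x⁆ ∈ L.der.comp (a + b) := by
  have h1 : ⁅m, x⁆ ∈ brk (L.comp a) (L.comp (a + b - a)) := by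
    rw [add_sub_cancel_left]
    exact lie_mem_brk (L.der_comp_le a hm) hx
  exact (le_iSup (fun a' : ZMod n => brk (L.comp a') (L.comp (a + b - a'))) a) h1

theorem lcsFam_lie {n : ℕ} (L : GFam n Λ) (i : ℕ) :
    ∀ {a b : ZMod n} {m x : Λ}, m ∈ lcsFam L.der i a → x ∈ L.comp b →
      ⁅m, x⁆ ∈ lcsFam L.der i (a + b) := by
  induction i with
  | zero => intro a b m x hm hx; exact der_lie L hm hx
  | succ i ih =>
    intro a b m x hm hx
    have hm' : m ∈ ⨆ c : ZMod n, brk (lcsFam L.der i c) (L.der.comp (a - c)) := hm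
    refine AddSubgroup.iSup_induction _ (C := fun m => ⁅m, x⁆ ∈ lcsFam L.der (i + 1) (a + b)) hm'
      ?_ ?_ ?_
    · intro c m hm
      refine AddSubgroup.closure_induction
        (p := fun m _ => ⁅m, x⁆ ∈ lcsFam L.der (i + 1) (a + b)) ?_ ?_ ?_ ?_ hm
      · rintro z ⟨u, hu, t, ht, rfl⟩
        rw [lie_lie]
        have h1 : ⁅u, ⁅t, x⁆⁆ ∈ lcsFam L.der (i + 1) (a + b) := by
          have h2 : ⁅u, ⁅t, x⁆⁆ ∈ brk (lcsFam L.der i c) (L.der.comp (a + b - c)) := by
            have h3 := der_lie L ht hx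
            have e : a - c + b = a + b - c := by ring
            rw [e] at h3
            exact lie_mem_brk hu h3
          exact (le_iSup (fun c' : ZMod n => brk (lcsFam L.der i c')
            (L.der.comp (a + b - c'))) c) h2
        have h4 : ⁅t, ⁅u, x⁆⁆ ∈ lcsFam L.der (i + 1) (a + b) := by
          have h5 : ⁅⁅u, x⁆, t⁆ ∈ brk (lcsFam L.der i (c + b)) (L.der.comp (a + b - (c + b))) := by
            have e : a + b - (c + b) = a - c := by ring
            rw [e]
            exact lie_mem_brk (ih hu hx) ht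
          have h6 := (le_iSup (fun c' : ZMod n => brk (lcsFam L.der i c')
            (L.der.comp (a + b - c'))) (c + b)) h5
          have h7 : ⁅t, ⁅u, x⁆⁆ = -⁅⁅u, x⁆, t⁆ := (lie_skew _ _).symm
          rw [h7]
          exact AddSubgroup.neg_mem _ h6
        exact AddSubgroup.sub_mem _ h1 h4
      · rw [zero_lie]; exact AddSubgroup.zero_mem _
      · intro y z _ _ hy hz; rw [add_lie]; exact AddSubgroup.add_mem _ hy hz
      · intro y _ hy; rw [neg_lie]; exact AddSubgroup.neg_mem _ hy
    · rw [zero_lie]; exact AddSubgroup.zero_mem _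
    · intro y z hy hz; rw [add_lie]; exact AddSubgroup.add_mem _ hy hz

theorem engelData {n : ℕ} (L : GFam n Λ) (i : ℕ) :
    EngelData L (lcsFam L.der i) (lcsA L.der.tot (i + 1)) where
  h1 := by
    intro x hx
    have := lcsFam_le_comp L.der i 0 hx
    rw [L.der.eq_zero_of_mem_zero this]
    exact AddSubgroup.zero_mem _
  h2 := fun hm hx => lcsFam_lie L i hm hx
  h3 := by
    intro b u x hu hx
    rw [← lcsFam_tot] at hu ⊢
    refine AddSubgroup.iSup_induction _
      (C := fun u => ⁅u, x⁆ ∈ ⨆ a, lcsFam L.der (i + 1) a) hu ?_ ?_ ?_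
    · intro a u hu
      exact (le_iSup (lcsFam L.der (i + 1)) (a + b)) (lcsFam_lie L (i + 1) hu hx)
    · rw [zero_lie]; exact AddSubgroup.zero_mem _
    · intro y z hy hz; rw [add_lie]; exact AddSubgroup.add_mem _ hy hz
  h4 := by
    intro a b c m x y hm hx hy
    have e : ⁅⁅m, x⁆, y⁆ - ⁅⁅m, y⁆, x⁆ = ⁅m, ⁅x, y⁆⁆ := by
      rw [lie_lie, ← lie_skew ⁅m, y⁆ x]
      abel
    rw [e, ← lcsFam_tot]
    have h1 : ⁅x, y⁆ ∈ L.der.comp (b + c) := by
      have h2 : ⁅x, y⁆ ∈ brk (L.comp b) (L.comp (b + c - b)) := by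
        rw [add_sub_cancel_left]
        exact lie_mem_brk hx hy
      exact (le_iSup (fun a' : ZMod n => brk (L.comp a') (L.comp (b + c - a'))) b) h2
    have h3 : ⁅m, ⁅x, y⁆⁆ ∈ brk (lcsFam L.der i a) (L.der.comp (a + (b + c) - a)) := by
      rw [add_sub_cancel_left]
      exact lie_mem_brk hm h1
    exact (le_iSup (lcsFam L.der (i + 1)) (a + (b + c)))
      ((le_iSup (fun a' : ZMod n => brk (lcsFam L.der i a')
        (L.der.comp (a + (b + c) - a'))) a) h3)

theorem class_step (L : GFam p Λ) (i : ℕ) :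
    lcsA L.tot (1 + (p - 1) * i) ≤ lcsA L.der.tot i := by
  induction i with
  | zero =>
    rw [Nat.mul_zero, Nat.add_zero, lcsA_zero, GFam.der_tot]
    exact le_rfl
  | succ i ih =>
    have e : 1 + (p - 1) * (i + 1) = (1 + (p - 1) * i) + (p - 1) := by ring
    rw [e, lcsA_add]
    refine (brkN_mono L.tot ih (p - 1)).trans ?_
    refine brkN_le_of_QP ?_
    rw [← lcsFam_tot]
    exact QP_iSup (fun a u hu => (engelData L i).QP hu)

/-- the Higman–Kreknin–Kostrikin function `∑_{i<d} (p-1)^i` -/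
def hkk (p d : ℕ) : ℕ := ∑ i ∈ Finset.range d, (p - 1) ^ i

theorem hkk_succ (p d : ℕ) : hkk p (d + 1) = 1 + (p - 1) * hkk p d := by
  unfold hkk
  rw [Finset.sum_range_succ', Finset.mul_sum, pow_zero, add_comm]
  congr 1
  refine Finset.sum_congr rfl (fun i _ => ?_)
  rw [pow_succ, mul_comm]

/-- **Kostrikin–Kreknin**: for `p` prime, a `ZMod p`-graded family with trivial zero component
and derived length `≤ d` is nilpotent of class `≤ ∑_{i<d} (p-1)^i`. -/
theorem class_bound : ∀ (d : ℕ) (L : GFam p Λ), dser L.tot d = ⊥ → lcsA L.tot (hkk p d) = ⊥ := by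
  intro d
  induction d with
  | zero =>
    intro L h
    simpa [hkk, lcsA_zero, dser_zero] using h
  | succ d ih =>
    intro L h
    have h1 : dser L.der.tot d = ⊥ := by
      rw [GFam.der_tot, ← h, add_comm d 1, dser_add]
      rfl
    have h2 := ih L.der h1
    rw [hkk_succ, eq_bot_iff, ← h2]
    exact class_step L (hkk p d)

/-- the Higman–Kreknin–Kostrikin bound for graded families -/
theorem hkk_bound (L : GFam p Λ) : lcsA L.tot (hkk p (2 ^ (p - 1) - 1)) = ⊥ :=
  haveI : NeZero p := ⟨(Fact.out : p.Prime).ne_zero⟩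
  class_bound _ L (kreknin L)

end Prime

section Three

variable {Λ : Type*} [LieRing Λ]

/-- a `ZMod 3`-graded family with trivial zero component has class at most 2 -/
theorem class_three (L : GFam 3 Λ) : lcsA L.tot 2 = ⊥ := by
  rw [eq_bot_iff]
  refine brkN_le_of_QP (L := L) ?_
  refine QP_iSup ?_
  intro a u hu b x hx c y hy
  show ⁅⁅u, x⁆, y⁆ ∈ (⊥ : AddSubgroup Λ)
  rw [AddSubgroup.mem_bot]
  have key : ∀ a b c : ZMod 3, a + b + c = 0 ∨ a + b = 0 ∨ a = 0 ∨ b = 0 ∨ c = 0 ∨
      (b + c = 0 ∧ a + c = 0) := by decide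
  rcases key a b c with h | h | h | h | h | ⟨h1, h2⟩
  · have := L.lie_mem' (L.lie_mem' hu hx) hy
    rw [h] at this
    exact L.eq_zero_of_mem_zero this
  · have := L.lie_mem' hu hx
    rw [h] at this
    rw [L.eq_zero_of_mem_zero this, zero_lie]
  · subst h
    rw [L.eq_zero_of_mem_zero hu, zero_lie, zero_lie]
  · subst h
    rw [L.eq_zero_of_mem_zero hx, lie_zero, zero_lie]
  · subst h
    rw [L.eq_zero_of_mem_zero hy, lie_zero]
  · have e1 := L.lie_mem' hx hy
    rw [h1] at e1
    have e2 := L.lie_mem' hu hy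
    rw [h2] at e2
    rw [lie_lie, L.eq_zero_of_mem_zero e1, L.eq_zero_of_mem_zero e2, lie_zero, lie_zero, sub_zero]

end Three

end Cfsg.Agent.Lib.Helper34
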