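import Mathlib
import Cfsg.Agent.Lib.Helper34.GradedLie

/-!
# The convolution Lie ring `L[ZMod n]` and the eigen-family of an automorphism

`Conv n L` is the type of functions `ZMod n → L` with the convolution bracket
(`L ⊗ ℤ[C_n]`).  For an additive bracket-preserving map `φ : L →+ L` the subgroups
`eig φ i = {f | ∀ k, φ (f k) = f (k - i)}` form a graded family.  If `φ` has prime period `p`,
no non-zero fixed points and `L` has no `p`-torsion, nilpotency of the family passes to `L`.
-/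

set_option autoImplicit false
set_option linter.style.haveILetI false
set_option linter.unusedSectionVars false

namespace Cfsg.Agent.Lib.Helper34

/-- functions `ZMod n → L` with the convolution bracket -/
def Conv (n : ℕ) (L : Type*) := ZMod n → L

namespace Conv

variable {n : ℕ} {L : Type*}

instance [AddCommGroup L] : AddCommGroup (Conv n L) := inferInstanceAs (AddCommGroup (ZMod n → L))

@[ext] theorem ext {f g : Conv n L} (h : ∀ k, f k = g k) : f = g := funext h

@[simp] theorem add_apply [AddCommGroup L] (f g : Conv n L) (k : ZMod n) : (f + g) k = f k + g k := rfl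
@[simp] theorem zero_apply [AddCommGroup L] (k : ZMod n) : (0 : Conv n L) k = 0 := rfl
@[simp] theorem neg_apply [AddCommGroup L] (f : Conv n L) (k : ZMod n) : (-f) k = -f k := rfl
@[simp] theorem sub_apply [AddCommGroup L] (f g : Conv n L) (k : ZMod n) : (f - g) k = f k - g k := rfl
@[simp] theorem nsmul_apply [AddCommGroup L] (m : ℕ) (f : Conv n L) (k : ZMod n) :
    (m • f) k = m • f k := rfl

theorem sum_apply [AddCommGroup L] {ι : Type*} (s : Finset ι) (F : ι → Conv n L) (k : ZMod n) :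
    (∑ i ∈ s, F i) k = ∑ i ∈ s, F i k := by
  classical
  induction s using Finset.induction_on with
  | empty => simp
  | insert a s ha ih => rw [Finset.sum_insert ha, Finset.sum_insert ha, add_apply, ih]

variable [NeZero n] [LieRing L]

instance : Bracket (Conv n L) (Conv n L) := ⟨fun f g k => ∑ i : ZMod n, ⁅f i, g (k - i)⁆⟩

theorem bracket_apply (f g : Conv n L) (k : ZMod n) :
    ⁅f, g⁆ k = ∑ i : ZMod n, ⁅f i, g (k - i)⁆ := rfl

instance : LieRing (Conv n L) where
  add_lie := by
    intro x y z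
    ext k
    simp [bracket_apply, add_lie, Finset.sum_add_distrib]
  lie_add := by
    intro x y z
    ext k
    simp [bracket_apply, lie_add, Finset.sum_add_distrib]
  lie_self := by
    intro x
    ext k
    rw [bracket_apply, zero_apply]
    refine Finset.sum_involution (fun i _ => k - i) ?_ ?_ ?_ ?_
    · intro i _
      rw [sub_sub_cancel, ← lie_skew (x i) (x (k - i)), neg_add_cancel]
    · intro i _ hne heq
      apply hne
      rw [heq, lie_self]
    · intro i _; exact Finset.mem_univ _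
    · intro i _; exact sub_sub_cancel k i
  leibniz_lie := by
    intro x y z
    ext k
    rw [add_apply, bracket_apply, bracket_apply, bracket_apply]
    have h1 : ∑ i : ZMod n, ⁅x i, ⁅y, z⁆ (k - i)⁆
        = ∑ i : ZMod n, ∑ j : ZMod n, ⁅x i, ⁅y j, z (k - i - j)⁆⁆ := by
      refine Finset.sum_congr rfl (fun i _ => ?_)
      rw [bracket_apply, lie_sum]
    have h2 : ∑ m : ZMod n, ⁅⁅x, y⁆ m, z (k - m)⁆
        = ∑ i : ZMod n, ∑ j : ZMod n, ⁅⁅x i, y j⁆, z (k - i - j)⁆ := by
      have : ∑ m : ZMod n, ⁅⁅x, y⁆ m, z (k - m)⁆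
          = ∑ m : ZMod n, ∑ i : ZMod n, ⁅⁅x i, y (m - i)⁆, z (k - m)⁆ := by
        refine Finset.sum_congr rfl (fun m _ => ?_)
        rw [bracket_apply, sum_lie]
      rw [this, Finset.sum_comm]
      refine Finset.sum_congr rfl (fun i _ => ?_)
      refine (Fintype.sum_equiv (Equiv.addRight i) _ _ (fun j => ?_)).symm
      simp only [Equiv.coe_addRight, add_sub_cancel_right]
      congr 2
      abel
    have h3 : ∑ j : ZMod n, ⁅y j, ⁅x, z⁆ (k - j)⁆
        = ∑ i : ZMod n, ∑ j : ZMod n, ⁅y j, ⁅x i, z (k - i - j)⁆⁆ := by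
      have : ∑ j : ZMod n, ⁅y j, ⁅x, z⁆ (k - j)⁆
          = ∑ j : ZMod n, ∑ i : ZMod n, ⁅y j, ⁅x i, z (k - j - i)⁆⁆ := by
        refine Finset.sum_congr rfl (fun j _ => ?_)
        rw [bracket_apply, lie_sum]
      rw [this, Finset.sum_comm]
      refine Finset.sum_congr rfl (fun i _ => Finset.sum_congr rfl (fun j _ => ?_))
      congr 3
      abel
    rw [h1, h2, h3, ← Finset.sum_add_distrib]
    refine Finset.sum_congr rfl (fun i _ => ?_)
    rw [← Finset.sum_add_distrib]
    refine Finset.sum_congr rfl (fun j _ => ?_)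
    rw [leibniz_lie]

/-- the `i`-th eigen-subgroup of `φ` acting coefficientwise -/
def eig (φ : L →+ L) (i : ZMod n) : AddSubgroup (Conv n L) where
  carrier := {f | ∀ k, φ (f k) = f (k - i)}
  zero_mem' := by intro k; simp
  add_mem' := by
    intro f g hf hg k
    rw [add_apply, map_add, hf k, hg k, add_apply]
  neg_mem' := by
    intro f hf k
    rw [neg_apply, map_neg, hf k, neg_apply]

theorem mem_eig {φ : L →+ L} {i : ZMod n} {f : Conv n L} :
    f ∈ eig φ i ↔ ∀ k, φ (f k) = f (k - i) := Iff.rfl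

/-- the eigen-family of a bracket-preserving additive map without non-zero fixed points -/
def eigFam (φ : L →+ L) (hφ : ∀ x y, φ ⁅x, y⁆ = ⁅φ x, φ y⁆) (hfix : ∀ x, φ x = x → x = 0) :
    GFam n (Conv n L) where
  comp := eig φ
  lie_mem' := by
    intro i j f g hf hg k
    rw [bracket_apply, map_sum, bracket_apply]
    have h1 : ∑ a : ZMod n, φ ⁅f a, g (k - a)⁆ = ∑ a : ZMod n, ⁅f (a - i), g (k - a - j)⁆ := by
      refine Finset.sum_congr rfl (fun a _ => ?_)
      rw [hφ, hf a, hg (k - a)]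
    rw [h1]
    refine (Fintype.sum_equiv (Equiv.addRight i) _ _ (fun a => ?_)).symm
    simp only [Equiv.coe_addRight, add_sub_cancel_right]
    congr 2
    abel
  zero' := by
    rw [eq_bot_iff]
    intro f hf
    rw [AddSubgroup.mem_bot]
    ext k
    have := hf k
    rw [sub_zero] at this
    exact hfix _ this

end Conv

section Transfer

open Conv

variable {L : Type*} [LieRing L] {p : ℕ} [Fact p.Prime]

theorem iterate_mod (φ : L →+ L) (hper : ∀ x, (⇑φ)^[p] x = x) (m : ℕ) (x : L) :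
    (⇑φ)^[m % p] x = (⇑φ)^[m] x := by
  have h : ∀ q : ℕ, ∀ x, (⇑φ)^[p * q] x = x := by
    intro q
    induction q with
    | zero => intro x; rfl
    | succ q ih =>
      intro x
      rw [Nat.mul_succ, Function.iterate_add_apply, hper, ih]
  conv_rhs => rw [← Nat.mod_add_div m p]
  rw [Function.iterate_add_apply, h]

theorem iterate_val_succ (φ : L →+ L) (hper : ∀ x, (⇑φ)^[p] x = x) (j : ZMod p) (x : L) :
    (⇑φ)^[(j + 1).val] x = φ ((⇑φ)^[j.val] x) := by
  haveI : NeZero p := ⟨(Fact.out : p.Prime).ne_zero⟩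
  rw [ZMod.val_add, iterate_mod φ hper]
  have h1 : (1 : ZMod p).val = 1 := ZMod.val_one p
  rw [h1, Function.iterate_succ_apply']

theorem sum_iterate_eq_zero (φ : L →+ L) (hfix : ∀ x, φ x = x → x = 0)
    (hper : ∀ x, (⇑φ)^[p] x = x) (l : L) :
    haveI : NeZero p := ⟨(Fact.out : p.Prime).ne_zero⟩
    ∑ j : ZMod p, (⇑φ)^[j.val] l = 0 := by
  haveI : NeZero p := ⟨(Fact.out : p.Prime).ne_zero⟩
  apply hfix
  rw [map_sum]
  have h1 : ∑ j : ZMod p, φ ((⇑φ)^[j.val] l) = ∑ j : ZMod p, (⇑φ)^[(j + 1).val] l := by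
    refine Finset.sum_congr rfl (fun j _ => ?_)
    rw [iterate_val_succ φ hper]
  rw [h1]
  exact Fintype.sum_equiv (Equiv.addRight 1) _ _ (fun j => rfl)

/-- the element `p·l·t⁰ - l·N` of `L[ZMod p]` -/
def eps (p : ℕ) (l : L) : Conv p L := fun k => (if k = 0 then p • l else 0) - l

theorem eps_apply (l : L) (k : ZMod p) : eps p l k = (if k = 0 then p • l else 0) - l := rfl

/-- the "eigen-components" of `l` -/
def eigE (φ : L →+ L) (i : ZMod p) (l : L) : Conv p L :=
  haveI : NeZero p := ⟨(Fact.out : p.Prime).ne_zero⟩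
  fun k => ∑ j : ZMod p, if k = -i * j then (⇑φ)^[j.val] l else 0

theorem eigE_mem (φ : L →+ L) (hper : ∀ x, (⇑φ)^[p] x = x) (i : ZMod p) (l : L) :
    haveI : NeZero p := ⟨(Fact.out : p.Prime).ne_zero⟩
    eigE φ i l ∈ eig φ i := by
  haveI : NeZero p := ⟨(Fact.out : p.Prime).ne_zero⟩
  intro k
  show φ (∑ j : ZMod p, if k = -i * j then (⇑φ)^[j.val] l else 0)
    = ∑ j : ZMod p, if k - i = -i * j then (⇑φ)^[j.val] l else 0
  rw [map_sum]
  refine (Fintype.sum_equiv (Equiv.addRight 1) _ _ (fun j => ?_))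
  show φ (if k = -i * j then (⇑φ)^[j.val] l else 0)
    = if k - i = -i * (j + 1) then (⇑φ)^[(j + 1).val] l else 0
  have hiff : (k = -i * j) ↔ (k - i = -i * (j + 1)) := by
    constructor
    · intro h; rw [h]; ring
    · intro h
      have : k = -i * (j + 1) + i := by rw [← h]; ring
      rw [this]; ring
  by_cases hk : k = -i * j
  · rw [if_pos hk, if_pos (hiff.mp hk), iterate_val_succ φ hper]
  · rw [if_neg hk, if_neg (fun h => hk (hiff.mpr h)), map_zero]

theorem sum_eigE (φ : L →+ L) (hfix : ∀ x, φ x = x → x = 0) (hper : ∀ x, (⇑φ)^[p] x = x) (l : L) :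
    haveI : NeZero p := ⟨(Fact.out : p.Prime).ne_zero⟩
    ∑ i : ZMod p, eigE φ i l = eps p l := by
  haveI : NeZero p := ⟨(Fact.out : p.Prime).ne_zero⟩
  ext k
  rw [Conv.sum_apply, eps_apply]
  show ∑ i : ZMod p, ∑ j : ZMod p, (if k = -i * j then (⇑φ)^[j.val] l else 0) = _
  rw [Finset.sum_comm]
  have h1 : ∀ j : ZMod p, ∑ i : ZMod p, (if k = -i * j then (⇑φ)^[j.val] l else 0)
      = (⇑φ)^[j.val] l + (if j = 0 then ((if k = 0 then p • l else 0) - l) else 0) := by
    intro j
    by_cases hj : j = 0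
    · subst hj
      simp only [mul_zero, ZMod.val_zero, Function.iterate_zero, id_eq, if_true]
      by_cases hk : k = 0
      · simp [hk, Finset.sum_const, Finset.card_univ, ZMod.card]
      · simp [hk]
    · rw [if_neg hj, add_zero]
      have hiff : ∀ i : ZMod p, (k = -i * j) ↔ (i = -k * j⁻¹) := by
        intro i
        constructor
        · intro h; rw [h]; field_simp
        · intro h; rw [h]; field_simp
      simp only [hiff]
      rw [Finset.sum_ite_eq' Finset.univ (-k * j⁻¹) (fun _ => (⇑φ)^[j.val] l)]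
      simp
  rw [Finset.sum_congr rfl (fun j _ => h1 j), Finset.sum_add_distrib,
    sum_iterate_eq_zero φ hfix hper, zero_add, Finset.sum_ite_eq' Finset.univ (0 : ZMod p)]
  simp

theorem eps_mem_tot (φ : L →+ L) (hφ : ∀ x y, φ ⁅x, y⁆ = ⁅φ x, φ y⁆)
    (hfix : ∀ x, φ x = x → x = 0) (hper : ∀ x, (⇑φ)^[p] x = x) (l : L) :
    haveI : NeZero p := ⟨(Fact.out : p.Prime).ne_zero⟩
    eps p l ∈ (eigFam (n := p) φ hφ hfix).tot := by
  haveI : NeZero p := ⟨(Fact.out : p.Prime).ne_zero⟩
  rw [← sum_eigE φ hfix hper l]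
  refine AddSubgroup.sum_mem _ (fun i _ => ?_)
  exact (eigFam (n := p) φ hφ hfix).comp_le_tot i (eigE_mem φ hper i l)

theorem sum_eps (l : L) :
    haveI : NeZero p := ⟨(Fact.out : p.Prime).ne_zero⟩
    ∑ i : ZMod p, eps p l i = 0 := by
  haveI : NeZero p := ⟨(Fact.out : p.Prime).ne_zero⟩
  simp only [eps_apply]
  rw [Finset.sum_sub_distrib, Finset.sum_ite_eq' Finset.univ (0 : ZMod p)]
  simp [Finset.sum_const, Finset.card_univ, ZMod.card]

theorem eps_lie (l : L) (g : Conv p L) (k : ZMod p) :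
    haveI : NeZero p := ⟨(Fact.out : p.Prime).ne_zero⟩
    ⁅eps p l, g⁆ k = p • ⁅l, g k⁆ - ⁅l, ∑ i : ZMod p, g i⁆ := by
  haveI : NeZero p := ⟨(Fact.out : p.Prime).ne_zero⟩
  rw [Conv.bracket_apply]
  have h1 : ∀ i : ZMod p, ⁅eps p l i, g (k - i)⁆
      = (if i = 0 then p • ⁅l, g k⁆ else 0) - ⁅l, g (k - i)⁆ := by
    intro i
    rw [eps_apply, sub_lie]
    by_cases hi : i = 0
    · subst hi
      simp [nsmul_lie]
    · simp [hi]
  rw [Finset.sum_congr rfl (fun i _ => h1 i), Finset.sum_sub_distrib,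
    Finset.sum_ite_eq' Finset.univ (0 : ZMod p)]
  simp only [Finset.mem_univ, if_true]
  congr 1
  exact (Fintype.sum_equiv (Equiv.subLeft k) (fun i : ZMod p => ⁅l, g (k - i)⁆)
    (fun i : ZMod p => ⁅l, g i⁆) (fun i => rfl)).trans
    (lie_sum Finset.univ (fun i : ZMod p => g i) l).symm

theorem eps_lie_eps (l m : L) :
    haveI : NeZero p := ⟨(Fact.out : p.Prime).ne_zero⟩
    ⁅eps p l, eps p m⁆ = p • eps p ⁅l, m⁆ := by
  haveI : NeZero p := ⟨(Fact.out : p.Prime).ne_zero⟩
  ext k
  rw [eps_lie, sum_eps, lie_zero, sub_zero, Conv.nsmul_apply, eps_apply, eps_apply, lie_sub]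
  by_cases hk : k = 0
  · simp [hk, lie_nsmul]
  · simp [hk]

theorem blist_nsmul {Λ : Type*} [LieRing Λ] (m : ℕ) (l : List Λ) :
    ∀ u : Λ, blist (m • u) l = m • blist u l := by
  induction l with
  | nil => intro u; rfl
  | cons x l ih => intro u; rw [blist_cons, nsmul_lie, ih]; rfl

theorem blist_eps (l : List L) :
    haveI : NeZero p := ⟨(Fact.out : p.Prime).ne_zero⟩
    ∀ u : L, blist (eps p u) (l.map (eps p)) = p ^ l.length • eps p (blist u l) := by
  haveI : NeZero p := ⟨(Fact.out : p.Prime).ne_zero⟩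
  induction l with
  | nil => intro u; simp
  | cons x l ih =>
    intro u
    rw [List.map_cons, blist_cons, eps_lie_eps, blist_nsmul, ih, blist_cons, List.length_cons,
      pow_succ, mul_smul]
    rw [smul_comm]

theorem pow_tor (htor : ∀ x : L, p • x = 0 → x = 0) : ∀ (m : ℕ) (x : L), p ^ m • x = 0 → x = 0 := by
  intro m
  induction m with
  | zero => intro x hx; simpa using hx
  | succ m ih =>
    intro x hx
    rw [pow_succ, mul_smul] at hx
    exact htor x (ih _ hx)

/-- **Transfer**: if the eigen-family of `φ` on `L[ZMod p]` is nilpotent of class `≤ c`, so is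
`L` (`φ` of period `p` without non-zero fixed points, `L` without `p`-torsion). -/
theorem conv_transfer (φ : L →+ L) (hφ : ∀ x y, φ ⁅x, y⁆ = ⁅φ x, φ y⁆)
    (hfix : ∀ x, φ x = x → x = 0) (hper : ∀ x, (⇑φ)^[p] x = x)
    (htor : ∀ x : L, p • x = 0 → x = 0) (c : ℕ)
    (h : haveI : NeZero p := ⟨(Fact.out : p.Prime).ne_zero⟩
      lcsA (eigFam (n := p) φ hφ hfix).tot c = ⊥) :
    lcsA (⊤ : AddSubgroup L) c = ⊥ := by
  haveI : NeZero p := ⟨(Fact.out : p.Prime).ne_zero⟩
  rw [eq_bot_iff]
  refine brkN_le_of_blist c ⊤ ?_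
  intro u _ l hl _
  rw [AddSubgroup.mem_bot]
  have h1 : blist (eps p u) (l.map (eps p)) ∈ lcsA (eigFam (n := p) φ hφ hfix).tot c := by
    have h2 := blist_mem_brkN (S := (eigFam (n := p) φ hφ hfix).tot) (l.map (eps p))
      (eigFam (n := p) φ hφ hfix).tot (eps p u) (eps_mem_tot φ hφ hfix hper u) (by
        intro x hx
        obtain ⟨y, _, rfl⟩ := List.mem_map.mp hx
        exact eps_mem_tot φ hφ hfix hper y)
    rwa [List.length_map, hl] at h2
  rw [h, AddSubgroup.mem_bot, blist_eps] at h1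
  have h3 : (p ^ l.length • eps p (blist u l)) (1 : ZMod p) = 0 := by rw [h1]; rfl
  rw [Conv.nsmul_apply, eps_apply, if_neg one_ne_zero, zero_sub, smul_neg, neg_eq_zero] at h3
  exact pow_tor htor _ _ h3

end Transfer

end Cfsg.Agent.Lib.Helper34
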