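import Mathlib
import Cfsg.Agent.Lib.Helper34.GradedLie

/-!
# The Lie ring associated with the lower central series of a group

`LL G` is the free abelian group on pairs `(n, g)` modulo the relations making
`g ↦ iota n g` additive on `γ_{n+1} = lowerCentralSeries ⊤ n` and trivial on the next term
(and on elements outside).  It carries a Lie ring structure with
`⁅iota i g, iota j h⁆ = iota (i+j+1) ⁅g,h⁆`.
-/

set_option autoImplicit false
set_option linter.unusedSectionVars false

open scoped commutatorElement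

namespace Cfsg.Agent.Lib.Helper34

section Gam

variable (G : Type*) [Group G]

/-- the lower central series, `gam G n = γ_{n+1}(G)` -/
abbrev gam (n : ℕ) : Subgroup G := (⊤ : Subgroup G).lowerCentralSeries n

variable {G}

theorem three_subgroups_le {H₁ H₂ H₃ : Subgroup G} (N : Subgroup G) [N.Normal]
    (h1 : ⁅⁅H₂, H₃⁆, H₁⁆ ≤ N) (h2 : ⁅⁅H₃, H₁⁆, H₂⁆ ≤ N) : ⁅⁅H₁, H₂⁆, H₃⁆ ≤ N := by
  have key : ∀ A B C : Subgroup G, ⁅⁅A, B⁆, C⁆ ≤ N →
      ⁅⁅A.map (QuotientGroup.mk' N), B.map (QuotientGroup.mk' N)⁆, C.map (QuotientGroup.mk' N)⁆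
        = ⊥ := by
    intro A B C h
    rw [← Subgroup.map_commutator, ← Subgroup.map_commutator, Subgroup.map_eq_bot_iff,
      QuotientGroup.ker_mk']
    exact h
  have h3 := Subgroup.commutator_commutator_eq_bot_of_rotate (key _ _ _ h1) (key _ _ _ h2)
  rw [← Subgroup.map_commutator, ← Subgroup.map_commutator, Subgroup.map_eq_bot_iff,
    QuotientGroup.ker_mk'] at h3
  exact h3

theorem gam_succ (n : ℕ) : gam G (n + 1) = ⁅gam G n, (⊤ : Subgroup G)⁆ := rfl

theorem gam_anti {m n : ℕ} (h : m ≤ n) : gam G n ≤ gam G m :=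
  Subgroup.lowerCentralSeries_antitone _ h

theorem gam_comm_le : ∀ (j i : ℕ), ⁅gam G i, gam G j⁆ ≤ gam G (i + j + 1) := by
  intro j
  induction j with
  | zero => intro i; exact le_rfl
  | succ j ih =>
    intro i
    rw [gam_succ j, Subgroup.commutator_comm]
    refine three_subgroups_le (gam G (i + (j + 1) + 1)) ?_ ?_
    · rw [Subgroup.commutator_comm (⊤ : Subgroup G) (gam G i), ← gam_succ]
      have := ih (i + 1)
      have e : i + 1 + j + 1 = i + (j + 1) + 1 := by omega
      rwa [e] at this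
    · have h1 : ⁅⁅gam G i, gam G j⁆, (⊤ : Subgroup G)⁆ ≤ ⁅gam G (i + j + 1), (⊤ : Subgroup G)⁆ :=
        Subgroup.commutator_mono (ih i) le_rfl
      exact h1

theorem comm_mem_gam {i j n : ℕ} {g h : G} (hg : g ∈ gam G i) (hh : h ∈ gam G j)
    (hn : n = i + j + 1) : ⁅g, h⁆ ∈ gam G n := by
  subst hn
  exact gam_comm_le j i (Subgroup.commutator_mem_commutator hg hh)

theorem comm_mem_gam_succ {n : ℕ} {g : G} (hg : g ∈ gam G n) (x : G) : ⁅g, x⁆ ∈ gam G (n + 1) :=
  Subgroup.commutator_mem_commutator hg (Subgroup.mem_top x)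

theorem comm_mem_gam_succ' {n : ℕ} {g : G} (hg : g ∈ gam G n) (x : G) : ⁅x, g⁆ ∈ gam G (n + 1) := by
  rw [← commutatorElement_inv]
  exact Subgroup.inv_mem _ (comm_mem_gam_succ hg x)

theorem map_mem_gam (α : G ≃* G) {n : ℕ} {g : G} (hg : g ∈ gam G n) : α g ∈ gam G n := by
  have h : (gam G n).map α.toMonoidHom = gam G n := by
    rw [Subgroup.map_lowerCentralSeries]
    congr 1
    exact Subgroup.map_top_of_surjective _ α.surjective
  rw [← h]
  exact Subgroup.mem_map_of_mem _ hg

theorem map_mem_gam_iff (α : G ≃* G) {n : ℕ} {g : G} : α g ∈ gam G n ↔ g ∈ gam G n := by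
  constructor
  · intro h
    have := map_mem_gam α.symm h
    simpa using this
  · exact map_mem_gam α

end Gam

section LLdef

variable (G : Type*) [Group G]

/-- relation generators -/
inductive LRel : FreeAbelianGroup (ℕ × G) → Prop
  | mul (n : ℕ) (g h : G) (hg : g ∈ gam G n) (hh : h ∈ gam G n) :
      LRel (FreeAbelianGroup.of (n, g) + FreeAbelianGroup.of (n, h) - FreeAbelianGroup.of (n, g * h))
  | low (n : ℕ) (g : G) (hg : g ∈ gam G (n + 1)) : LRel (FreeAbelianGroup.of (n, g))
  | junk (n : ℕ) (g : G) (hg : g ∉ gam G n) : LRel (FreeAbelianGroup.of (n, g))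

/-- the subgroup of relations -/
def LRelS : AddSubgroup (FreeAbelianGroup (ℕ × G)) := AddSubgroup.closure {x | LRel G x}

/-- the Lie ring of the lower central series (carrier) -/
def LL : Type _ := FreeAbelianGroup (ℕ × G) ⧸ LRelS G

instance : AddCommGroup (LL G) :=
  inferInstanceAs (AddCommGroup (FreeAbelianGroup (ℕ × G) ⧸ LRelS G))

/-- the quotient map -/
def LLmk : FreeAbelianGroup (ℕ × G) →+ LL G := QuotientAddGroup.mk' (LRelS G)

variable {G}

theorem LLmk_eq_zero {x : FreeAbelianGroup (ℕ × G)} (hx : x ∈ LRelS G) : LLmk G x = 0 :=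
  (QuotientAddGroup.eq_zero_iff x).mpr hx

theorem LLmk_surj (x : LL G) : ∃ y, LLmk G y = x :=
  QuotientAddGroup.mk'_surjective (LRelS G) x

/-- the class of `g` in degree `n` -/
def iota (n : ℕ) (g : G) : LL G := LLmk G (FreeAbelianGroup.of (n, g))

theorem iota_mul {n : ℕ} {g h : G} (hg : g ∈ gam G n) (hh : h ∈ gam G n) :
    iota n (g * h) = iota n g + iota n h := by
  have h1 := LLmk_eq_zero (AddSubgroup.subset_closure (LRel.mul n g h hg hh))
  rw [map_sub, map_add, sub_eq_zero] at h1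
  exact h1.symm

theorem iota_low {n : ℕ} {g : G} (hg : g ∈ gam G (n + 1)) : iota n g = 0 :=
  LLmk_eq_zero (AddSubgroup.subset_closure (LRel.low n g hg))

theorem iota_junk {n : ℕ} {g : G} (hg : g ∉ gam G n) : iota n g = 0 :=
  LLmk_eq_zero (AddSubgroup.subset_closure (LRel.junk n g hg))

theorem iota_one (n : ℕ) : iota n (1 : G) = 0 := iota_low (Subgroup.one_mem _)

theorem iota_inv {n : ℕ} {g : G} (hg : g ∈ gam G n) : iota n g⁻¹ = -iota n g := by
  have h1 := iota_mul hg (Subgroup.inv_mem _ hg)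
  rw [mul_inv_cancel, iota_one] at h1
  exact eq_neg_of_add_eq_zero_right h1.symm

theorem iota_conj {n : ℕ} {g : G} (hg : g ∈ gam G n) (x : G) :
    iota n (x * g * x⁻¹) = iota n g := by
  have e : x * g * x⁻¹ = ⁅x, g⁆ * g := by
    rw [commutatorElement_def]; group
  have h1 : ⁅x, g⁆ ∈ gam G (n + 1) := comm_mem_gam_succ' hg x
  rw [e, iota_mul (gam_anti (Nat.le_succ n) h1) hg, iota_low h1, zero_add]

theorem iota_pow {n : ℕ} {g : G} (hg : g ∈ gam G n) (k : ℕ) : iota n (g ^ k) = k • iota n g := by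
  induction k with
  | zero => rw [pow_zero, iota_one, zero_smul]
  | succ k ih => rw [pow_succ, iota_mul (Subgroup.pow_mem _ hg k) hg, ih, succ_nsmul]

theorem iota_comm_mul_left {i j N : ℕ} {g g' h : G} (hg : g ∈ gam G i) (hg' : g' ∈ gam G i)
    (hh : h ∈ gam G j) (hN : N = i + j + 1) :
    iota N ⁅g * g', h⁆ = iota N ⁅g, h⁆ + iota N ⁅g', h⁆ := by
  have e : ⁅g * g', h⁆ = g * ⁅g', h⁆ * g⁻¹ * ⁅g, h⁆ := by
    simp only [commutatorElement_def]; group
  have h1 : ⁅g, h⁆ ∈ gam G N := comm_mem_gam hg hh hN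
  have h2 : ⁅g', h⁆ ∈ gam G N := comm_mem_gam hg' hh hN
  have h3 : g * ⁅g', h⁆ * g⁻¹ ∈ gam G N :=
    (inferInstance : (gam G N).Normal).conj_mem _ h2 g
  rw [e, iota_mul h3 h1, iota_conj h2, add_comm]

theorem iota_comm_mul_right {i j N : ℕ} {g h h' : G} (hg : g ∈ gam G i) (hh : h ∈ gam G j)
    (hh' : h' ∈ gam G j) (hN : N = i + j + 1) :
    iota N ⁅g, h * h'⁆ = iota N ⁅g, h⁆ + iota N ⁅g, h'⁆ := by
  have e : ⁅g, h * h'⁆ = ⁅g, h⁆ * (h * ⁅g, h'⁆ * h⁻¹) := by
    simp only [commutatorElement_def]; group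
  have h1 : ⁅g, h⁆ ∈ gam G N := comm_mem_gam hg hh hN
  have h2 : ⁅g, h'⁆ ∈ gam G N := comm_mem_gam hg hh' hN
  have h3 : h * ⁅g, h'⁆ * h⁻¹ ∈ gam G N :=
    (inferInstance : (gam G N).Normal).conj_mem _ h2 h
  rw [e, iota_mul h1 h3, iota_conj h2]

theorem iota_comm_low_left {i j N : ℕ} {g h : G} (hg : g ∈ gam G (i + 1)) (hh : h ∈ gam G j)
    (hN : N = i + j + 1) : iota N ⁅g, h⁆ = 0 :=
  iota_low (comm_mem_gam hg hh (by omega))

theorem iota_comm_low_right {i j N : ℕ} {g h : G} (hg : g ∈ gam G i) (hh : h ∈ gam G (j + 1))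
    (hN : N = i + j + 1) : iota N ⁅g, h⁆ = 0 :=
  iota_low (comm_mem_gam hg hh (by omega))

/-- induction principle on generators -/
theorem LL_induction {P : LL G → Prop} (h0 : P 0)
    (hι : ∀ (n : ℕ) (g : G), g ∈ gam G n → P (iota n g))
    (hadd : ∀ x y, P x → P y → P (x + y)) (hneg : ∀ x, P x → P (-x)) : ∀ x, P x := by
  intro x
  obtain ⟨y, rfl⟩ := LLmk_surj x
  induction y using FreeAbelianGroup.induction_on with
  | zero => rw [map_zero]; exact h0
  | of x =>
    by_cases hx : x.2 ∈ gam G x.1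
    · exact hι x.1 x.2 hx
    · have : LLmk G (FreeAbelianGroup.of x) = 0 := iota_junk (n := x.1) (g := x.2) hx
      rw [this]; exact h0
  | neg x ih => rw [map_neg]; exact hneg _ ih
  | add x y ihx ihy => rw [map_add]; exact hadd _ _ ihx ihy

/-- lifting additive maps to `LL G` -/
def LLlift {M : Type*} [AddCommGroup M] (f : FreeAbelianGroup (ℕ × G) →+ M)
    (h : ∀ r, LRel G r → f r = 0) : LL G →+ M :=
  QuotientAddGroup.lift (LRelS G) f (by
    rw [LRelS, AddSubgroup.closure_le]
    intro r hr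
    exact h r hr)

theorem LLlift_mk {M : Type*} [AddCommGroup M] (f : FreeAbelianGroup (ℕ × G) →+ M)
    (h : ∀ r, LRel G r → f r = 0) (x : FreeAbelianGroup (ℕ × G)) :
    LLlift f h (LLmk G x) = f x := rfl

theorem LLlift_iota {M : Type*} [AddCommGroup M] (f : FreeAbelianGroup (ℕ × G) →+ M)
    (h : ∀ r, LRel G r → f r = 0) (n : ℕ) (g : G) :
    LLlift f h (iota n g) = f (FreeAbelianGroup.of (n, g)) := rfl

theorem LL_hom_ext {M : Type*} [AddCommGroup M] {f f' : LL G →+ M}
    (h : ∀ (n : ℕ) (g : G), g ∈ gam G n → f (iota n g) = f' (iota n g)) : f = f' := by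
  ext x
  refine LL_induction (P := fun x => f x = f' x) ?_ h ?_ ?_ x
  · rw [map_zero, map_zero]
  · intro x y hx hy; rw [map_add, map_add, hx, hy]
  · intro x hx; rw [map_neg, map_neg, hx]

end LLdef

section LLbracket

variable {G : Type*} [Group G]

open Classical in
/-- the bracket on the free abelian group -/
noncomputable def brF :
    FreeAbelianGroup (ℕ × G) →+ FreeAbelianGroup (ℕ × G) →+ FreeAbelianGroup (ℕ × G) :=
  FreeAbelianGroup.lift (fun x => FreeAbelianGroup.lift (fun y =>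
    if x.2 ∈ gam G x.1 ∧ y.2 ∈ gam G y.1 then
      FreeAbelianGroup.of (x.1 + y.1 + 1, ⁅x.2, y.2⁆) else 0))

/-- the bracket with values in `LL G` -/
noncomputable def brFL : FreeAbelianGroup (ℕ × G) →+ FreeAbelianGroup (ℕ × G) →+ LL G :=
  (AddMonoidHom.compHom (LLmk G)).comp brF

open Classical in
theorem brFL_of_of (i j : ℕ) (g h : G) :
    brFL (FreeAbelianGroup.of (i, g)) (FreeAbelianGroup.of (j, h))
      = if g ∈ gam G i ∧ h ∈ gam G j then iota (i + j + 1) ⁅g, h⁆ else 0 := by
  show LLmk G (brF (FreeAbelianGroup.of (i, g)) (FreeAbelianGroup.of (j, h))) = _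
  rw [brF, FreeAbelianGroup.lift_apply_of, FreeAbelianGroup.lift_apply_of]
  split_ifs
  · rfl
  · rw [map_zero]

theorem brFL_rel_right (x : FreeAbelianGroup (ℕ × G)) :
    ∀ r, LRel G r → brFL x r = 0 := by
  classical
  intro r hr
  induction x using FreeAbelianGroup.induction_on with
  | zero => rw [map_zero]; rfl
  | of x =>
    obtain ⟨i, g⟩ := x
    cases hr with
    | mul n h h' hh hh' =>
      rw [map_sub, map_add, brFL_of_of, brFL_of_of, brFL_of_of]
      by_cases hg : g ∈ gam G i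
      · rw [if_pos ⟨hg, hh⟩, if_pos ⟨hg, hh'⟩, if_pos ⟨hg, Subgroup.mul_mem _ hh hh'⟩,
          iota_comm_mul_right hg hh hh' rfl, sub_self]
      · rw [if_neg (fun hc => hg hc.1), if_neg (fun hc => hg hc.1), if_neg (fun hc => hg hc.1)]
        simp
    | low n h hh =>
      rw [brFL_of_of]
      split_ifs with hc
      · exact iota_comm_low_right hc.1 hh rfl
      · rfl
    | junk n h hh =>
      rw [brFL_of_of, if_neg (fun hc => hh hc.2)]
  | neg x ih => rw [map_neg, AddMonoidHom.neg_apply, ih, neg_zero]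
  | add x y ihx ihy => rw [map_add, AddMonoidHom.add_apply, ihx, ihy, add_zero]

theorem brFL_rel_left (y : FreeAbelianGroup (ℕ × G)) :
    ∀ r, LRel G r → brFL r y = 0 := by
  classical
  intro r hr
  induction y using FreeAbelianGroup.induction_on with
  | zero => rw [map_zero]
  | of y =>
    obtain ⟨j, h⟩ := y
    cases hr with
    | mul n g g' hg hg' =>
      rw [map_sub, map_add, AddMonoidHom.sub_apply, AddMonoidHom.add_apply,
        brFL_of_of, brFL_of_of, brFL_of_of]
      by_cases hh : h ∈ gam G j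
      · rw [if_pos ⟨hg, hh⟩, if_pos ⟨hg', hh⟩, if_pos ⟨Subgroup.mul_mem _ hg hg', hh⟩,
          iota_comm_mul_left hg hg' hh rfl, sub_self]
      · rw [if_neg (fun hc => hh hc.2), if_neg (fun hc => hh hc.2), if_neg (fun hc => hh hc.2)]
        simp
    | low n g hg =>
      rw [brFL_of_of]
      split_ifs with hc
      · exact iota_comm_low_left hg hc.2 rfl
      · rfl
    | junk n g hg =>
      rw [brFL_of_of, if_neg (fun hc => hg hc.1)]
  | neg y ih => rw [map_neg, ih, neg_zero]
  | add x y ihx ihy => rw [map_add, ihx, ihy, add_zero]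

/-- first lift -/
noncomputable def brL1 : FreeAbelianGroup (ℕ × G) →+ (LL G →+ LL G) where
  toFun x := LLlift (brFL x) (brFL_rel_right x)
  map_zero' := by
    ext y
    obtain ⟨y', rfl⟩ := LLmk_surj y
    rw [LLlift_mk, map_zero]; rfl
  map_add' := by
    intro x x'
    ext y
    obtain ⟨y', rfl⟩ := LLmk_surj y
    rw [AddMonoidHom.add_apply, LLlift_mk, LLlift_mk, LLlift_mk, map_add]; rfl

/-- the bracket of `LL G` as a bi-additive map -/
noncomputable def brL : LL G →+ LL G →+ LL G :=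
  LLlift brL1 (by
    intro r hr
    ext y
    obtain ⟨y', rfl⟩ := LLmk_surj y
    show LLlift (brFL r) (brFL_rel_right r) (LLmk G y') = 0
    rw [LLlift_mk]
    exact brFL_rel_left y' r hr)

theorem brL_mk_mk (x y : FreeAbelianGroup (ℕ × G)) : brL (LLmk G x) (LLmk G y) = brFL x y := rfl

theorem brL_iota {i j N : ℕ} {g h : G} (hg : g ∈ gam G i) (hh : h ∈ gam G j)
    (hN : N = i + j + 1) : brL (iota i g) (iota j h) = iota N ⁅g, h⁆ := by
  classical
  subst hN
  show brL (LLmk G _) (LLmk G _) = _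
  rw [brL_mk_mk, brFL_of_of, if_pos ⟨hg, hh⟩]

theorem brL_skew : ∀ x y : LL G, brL x y = -brL y x := by
  intro x
  refine LL_induction (P := fun x => ∀ y, brL x y = -brL y x) ?_ ?_ ?_ ?_ x
  · intro y; simp
  · intro i g hg y
    refine LL_induction (P := fun y => brL (iota i g) y = -brL y (iota i g)) ?_ ?_ ?_ ?_ y
    · simp
    · intro j h hh
      rw [brL_iota hg hh rfl, brL_iota hh hg (N := i + j + 1) (by omega),
        ← commutatorElement_inv g h, iota_inv (comm_mem_gam hg hh rfl), neg_neg]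
    · intro y y' hy hy'
      rw [map_add, hy, hy', map_add, AddMonoidHom.add_apply, neg_add]
    · intro y hy
      rw [map_neg, hy, map_neg, AddMonoidHom.neg_apply]
  · intro x x' hx hx' y
    rw [map_add, AddMonoidHom.add_apply, hx, hx', map_add, neg_add]
  · intro x hx y
    rw [map_neg, AddMonoidHom.neg_apply, hx, map_neg]

theorem brL_self : ∀ x : LL G, brL x x = 0 := by
  intro x
  refine LL_induction (P := fun x => brL x x = 0) ?_ ?_ ?_ ?_ x
  · simp
  · intro i g hg
    rw [brL_iota hg hg rfl, commutatorElement_self, iota_one]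
  · intro x y hx hy
    simp only [map_add, AddMonoidHom.add_apply]
    rw [hx, hy, brL_skew y x]
    abel
  · intro x hx
    simp only [map_neg, AddMonoidHom.neg_apply]
    rw [hx]
    simp

theorem brL_triple {i j k : ℕ} {a b c : G} (ha : a ∈ gam G i) (hb : b ∈ gam G j)
    (hc : c ∈ gam G k) (N : ℕ) (hN : N = i + j + k + 2) :
    brL (brL (iota i a) (iota j b)) (iota k c) = iota N ⁅⁅a, b⁻¹⁆⁻¹, c⁆ := by
  have hb' := Subgroup.inv_mem _ hb
  have h1 : ⁅a, b⁻¹⁆ ∈ gam G (i + j + 1) := comm_mem_gam ha hb' rfl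
  have h2 := brL_iota (Subgroup.inv_mem _ h1) hc (N := N) (by omega)
  rw [← h2, iota_inv h1, ← brL_iota ha hb' rfl, iota_inv hb]
  simp only [map_neg, neg_neg]

theorem brL_jacobi_gen {i j k : ℕ} {a b c : G} (ha : a ∈ gam G i) (hb : b ∈ gam G j)
    (hc : c ∈ gam G k) :
    brL (brL (iota i a) (iota j b)) (iota k c) + brL (brL (iota j b) (iota k c)) (iota i a)
      + brL (brL (iota k c) (iota i a)) (iota j b) = 0 := by
  have hw : b * ⁅⁅a, b⁻¹⁆⁻¹, c⁆ * b⁻¹ * (c * ⁅⁅b, c⁻¹⁆⁻¹, a⁆ * c⁻¹)
      * (a * ⁅⁅c, a⁻¹⁆⁻¹, b⁆ * a⁻¹) = 1 := by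
    simp only [commutatorElement_def]; group
  have mem : ∀ {i j k : ℕ} {a b c : G}, a ∈ gam G i → b ∈ gam G j → c ∈ gam G k →
      ∀ N, N = i + j + k + 2 → ⁅⁅a, b⁻¹⁆⁻¹, c⁆ ∈ gam G N := by
    intro i j k a b c ha hb hc N hN
    exact comm_mem_gam (Subgroup.inv_mem _ (comm_mem_gam ha (Subgroup.inv_mem _ hb) rfl)) hc
      (by omega)
  have m1 := mem ha hb hc (i + j + k + 2) rfl
  have m2 := mem hb hc ha (i + j + k + 2) (by omega)
  have m3 := mem hc ha hb (i + j + k + 2) (by omega)
  have c1 := (inferInstance : (gam G (i + j + k + 2)).Normal).conj_mem _ m1 b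
  have c2 := (inferInstance : (gam G (i + j + k + 2)).Normal).conj_mem _ m2 c
  have c3 := (inferInstance : (gam G (i + j + k + 2)).Normal).conj_mem _ m3 a
  rw [brL_triple ha hb hc (i + j + k + 2) rfl, brL_triple hb hc ha (i + j + k + 2) (by omega),
    brL_triple hc ha hb (i + j + k + 2) (by omega)]
  have h := congrArg (iota (i + j + k + 2)) hw
  rw [iota_mul (Subgroup.mul_mem _ c1 c2) c3, iota_mul c1 c2, iota_conj m1, iota_conj m2,
    iota_conj m3, iota_one] at h
  exact h

/-- the Jacobi sum -/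
noncomputable def jacL (x y z : LL G) : LL G :=
  brL (brL x y) z + brL (brL y z) x + brL (brL z x) y

theorem jacL_add₁ (x x' y z : LL G) : jacL (x + x') y z = jacL x y z + jacL x' y z := by
  simp only [jacL, map_add, AddMonoidHom.add_apply]; abel

theorem jacL_add₂ (x y y' z : LL G) : jacL x (y + y') z = jacL x y z + jacL x y' z := by
  simp only [jacL, map_add, AddMonoidHom.add_apply]; abel

theorem jacL_add₃ (x y z z' : LL G) : jacL x y (z + z') = jacL x y z + jacL x y z' := by
  simp only [jacL, map_add, AddMonoidHom.add_apply]; abel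

theorem jacL_neg₁ (x y z : LL G) : jacL (-x) y z = -jacL x y z := by
  simp only [jacL, map_neg, AddMonoidHom.neg_apply]; abel

theorem jacL_neg₂ (x y z : LL G) : jacL x (-y) z = -jacL x y z := by
  simp only [jacL, map_neg, AddMonoidHom.neg_apply]; abel

theorem jacL_neg₃ (x y z : LL G) : jacL x y (-z) = -jacL x y z := by
  simp only [jacL, map_neg, AddMonoidHom.neg_apply]; abel

theorem jacL_eq_zero : ∀ x y z : LL G, jacL x y z = 0 := by
  intro x
  refine LL_induction (P := fun x => ∀ y z, jacL x y z = 0) ?_ ?_ ?_ ?_ x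
  · intro y z; simp [jacL]
  · intro i a ha y
    refine LL_induction (P := fun y => ∀ z, jacL (iota i a) y z = 0) ?_ ?_ ?_ ?_ y
    · intro z; simp [jacL]
    · intro j b hb z
      refine LL_induction (P := fun z => jacL (iota i a) (iota j b) z = 0) ?_ ?_ ?_ ?_ z
      · simp [jacL]
      · intro k c hc
        exact brL_jacobi_gen ha hb hc
      · intro z z' hz hz'; rw [jacL_add₃, hz, hz', add_zero]
      · intro z hz; rw [jacL_neg₃, hz, neg_zero]
    · intro y y' hy hy' z; rw [jacL_add₂, hy, hy', add_zero]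
    · intro y hy z; rw [jacL_neg₂, hy, neg_zero]
  · intro x x' hx hx' y z; rw [jacL_add₁, hx, hx', add_zero]
  · intro x hx y z; rw [jacL_neg₁, hx, neg_zero]

noncomputable instance : LieRing (LL G) :=
  { (inferInstance : AddCommGroup (LL G)) with
    bracket := fun x y => brL x y
    add_lie := by
      intro x y z
      show brL (x + y) z = brL x z + brL y z
      rw [map_add]; rfl
    lie_add := by
      intro x y z
      show brL x (y + z) = brL x y + brL x z
      rw [map_add]
    lie_self := brL_self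
    leibniz_lie := by
      intro x y z
      show brL x (brL y z) = brL (brL x y) z + brL y (brL x z)
      have h := jacL_eq_zero x y z
      unfold jacL at h
      rw [brL_skew x (brL y z), brL_skew y (brL x z), brL_skew x z]
      simp only [map_neg, AddMonoidHom.neg_apply, neg_neg]
      rw [eq_comm, ← sub_eq_zero, ← h]
      abel }

theorem lie_def (x y : LL G) : ⁅x, y⁆ = brL x y := rfl

theorem lie_iota {i j N : ℕ} {g h : G} (hg : g ∈ gam G i) (hh : h ∈ gam G j)
    (hN : N = i + j + 1) : ⁅iota i g, iota j h⁆ = iota N ⁅g, h⁆ :=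
  brL_iota hg hh hN

end LLbracket

section LLstructure

variable {G : Type*} [Group G]

/-- the `n`-th section of the lower central series -/
abbrev Qsec (G : Type*) [Group G] (n : ℕ) : Type _ :=
  ↥(gam G n) ⧸ (gam G (n + 1)).subgroupOf (gam G n)

instance qsecComm (n : ℕ) : CommGroup (Qsec G n) :=
  { (inferInstance : Group (Qsec G n)) with
    mul_comm := by
      intro x y
      induction x using QuotientGroup.induction_on with
      | _ a =>
        induction y using QuotientGroup.induction_on with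
        | _ b =>
          rw [← QuotientGroup.mk_mul, ← QuotientGroup.mk_mul, QuotientGroup.eq,
            Subgroup.mem_subgroupOf]
          have e : (((a * b)⁻¹ * (b * a) : gam G n) : G) = ⁅(b : G)⁻¹, (a : G)⁻¹⁆ := by
            simp only [commutatorElement_def, Subgroup.coe_mul, Subgroup.coe_inv]
            group
          rw [e]
          exact comm_mem_gam_succ (Subgroup.inv_mem _ b.2) _ }

open Classical in
/-- detection map on the free abelian group -/
noncomputable def piF (n : ℕ) : FreeAbelianGroup (ℕ × G) →+ Additive (Qsec G n) :=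
  FreeAbelianGroup.lift (fun x =>
    if h : x.1 = n ∧ x.2 ∈ gam G n then
      Additive.ofMul (QuotientGroup.mk ⟨x.2, h.2⟩ : Qsec G n) else 0)

open Classical in
theorem piF_of (n m : ℕ) (g : G) :
    piF n (FreeAbelianGroup.of (m, g))
      = if h : m = n ∧ g ∈ gam G n then
          Additive.ofMul (QuotientGroup.mk ⟨g, h.2⟩ : Qsec G n) else 0 := by
  rw [piF, FreeAbelianGroup.lift_apply_of]

theorem piF_rel (n : ℕ) : ∀ r, LRel G r → piF (G := G) n r = 0 := by
  classical
  intro r hr
  cases hr with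
  | mul m g h hg hh =>
    rw [map_sub, map_add, piF_of, piF_of, piF_of]
    by_cases hm : m = n
    · subst hm
      rw [dif_pos ⟨rfl, hg⟩, dif_pos ⟨rfl, hh⟩, dif_pos ⟨rfl, Subgroup.mul_mem _ hg hh⟩,
        sub_eq_zero]
      rfl
    · rw [dif_neg (fun hc => hm hc.1), dif_neg (fun hc => hm hc.1), dif_neg (fun hc => hm hc.1)]
      simp
  | low m g hg =>
    rw [piF_of]
    split_ifs with hc
    · obtain ⟨rfl, hc2⟩ := hc
      rw [ofMul_eq_zero, QuotientGroup.eq_one_iff, Subgroup.mem_subgroupOf]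
      exact hg
    · rfl
  | junk m g hg =>
    rw [piF_of, dif_neg]
    rintro ⟨rfl, hc2⟩
    exact hg hc2

/-- detection map `LL G → γ_n/γ_{n+1}` -/
noncomputable def piL (n : ℕ) : LL G →+ Additive (Qsec G n) := LLlift (piF n) (piF_rel n)

theorem iota_eq_zero_iff {n : ℕ} {g : G} (hg : g ∈ gam G n) :
    iota n g = 0 ↔ g ∈ gam G (n + 1) := by
  classical
  constructor
  · intro h
    have h1 := congrArg (piL n) h
    rw [piL, LLlift_iota, piF_of, dif_pos ⟨rfl, hg⟩, map_zero, ofMul_eq_zero,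
      QuotientGroup.eq_one_iff, Subgroup.mem_subgroupOf] at h1
    exact h1
  · exact iota_low

open Classical in
/-- projection to degree `n` on the free abelian group -/
noncomputable def prF (n : ℕ) : FreeAbelianGroup (ℕ × G) →+ LL G :=
  FreeAbelianGroup.lift (fun x => if x.1 = n then iota n x.2 else 0)

open Classical in
theorem prF_of (n m : ℕ) (g : G) :
    prF n (FreeAbelianGroup.of (m, g)) = if m = n then iota n g else 0 := by
  rw [prF, FreeAbelianGroup.lift_apply_of]

theorem prF_rel (n : ℕ) : ∀ r, LRel G r → prF (G := G) n r = 0 := by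
  classical
  intro r hr
  cases hr with
  | mul m g h hg hh =>
    rw [map_sub, map_add, prF_of, prF_of, prF_of]
    by_cases hm : m = n
    · subst hm
      rw [if_pos rfl, if_pos rfl, if_pos rfl, iota_mul hg hh, sub_self]
    · rw [if_neg hm, if_neg hm, if_neg hm]
      simp
  | low m g hg =>
    rw [prF_of]
    split_ifs with hc
    · subst hc
      exact iota_low hg
    · rfl
  | junk m g hg =>
    rw [prF_of]
    split_ifs with hc
    · subst hc
      exact iota_junk hg
    · rfl

/-- projection to degree `n` -/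
noncomputable def prL (n : ℕ) : LL G →+ LL G := LLlift (prF n) (prF_rel n)

open Classical in
theorem prL_iota (n m : ℕ) (g : G) : prL n (iota m g) = if m = n then iota n g else 0 := by
  rw [prL, LLlift_iota, prF_of]

theorem prL_exists (n : ℕ) (x : LL G) : ∃ g ∈ gam G n, prL n x = iota n g := by
  classical
  refine LL_induction (P := fun x => ∃ g ∈ gam G n, prL n x = iota n g) ?_ ?_ ?_ ?_ x
  · exact ⟨1, Subgroup.one_mem _, by rw [map_zero, iota_one]⟩
  · intro m g hg
    by_cases hm : m = n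
    · subst hm
      exact ⟨g, hg, by rw [prL_iota, if_pos rfl]⟩
    · exact ⟨1, Subgroup.one_mem _, by rw [prL_iota, if_neg hm, iota_one]⟩
  · rintro x y ⟨g, hg, hx⟩ ⟨h, hh, hy⟩
    exact ⟨g * h, Subgroup.mul_mem _ hg hh, by rw [map_add, hx, hy, iota_mul hg hh]⟩
  · rintro x ⟨g, hg, hx⟩
    exact ⟨g⁻¹, Subgroup.inv_mem _ hg, by rw [map_neg, hx, iota_inv hg]⟩

theorem prL_sum (x : LL G) :
    ∃ N : ℕ, ∀ M : ℕ, N ≤ M → x = ∑ n ∈ Finset.range M, prL n x := by
  classical
  refine LL_induction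
    (P := fun x => ∃ N : ℕ, ∀ M : ℕ, N ≤ M → x = ∑ n ∈ Finset.range M, prL n x) ?_ ?_ ?_ ?_ x
  · exact ⟨0, fun M _ => by simp⟩
  · intro m g _
    refine ⟨m + 1, fun M hM => ?_⟩
    simp only [prL_iota]
    rw [Finset.sum_ite_eq (Finset.range M) m (fun n => iota n g),
      if_pos (Finset.mem_range.mpr (by omega))]
  · rintro x y ⟨N, hN⟩ ⟨N', hN'⟩
    refine ⟨max N N', fun M hM => ?_⟩
    simp only [map_add]
    rw [Finset.sum_add_distrib, ← hN M (le_trans (le_max_left _ _) hM),
      ← hN' M (le_trans (le_max_right _ _) hM)]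
  · rintro x ⟨N, hN⟩
    refine ⟨N, fun M hM => ?_⟩
    simp only [map_neg]
    rw [Finset.sum_neg_distrib, ← hN M hM]

/-- the additive map induced by an automorphism, on the free abelian group -/
noncomputable def autF (α : G ≃* G) : FreeAbelianGroup (ℕ × G) →+ LL G :=
  FreeAbelianGroup.lift (fun x => iota x.1 (α x.2))

theorem autF_of (α : G ≃* G) (n : ℕ) (g : G) :
    autF α (FreeAbelianGroup.of (n, g)) = iota n (α g) := by
  rw [autF, FreeAbelianGroup.lift_apply_of]

theorem autF_rel (α : G ≃* G) : ∀ r, LRel G r → autF α r = 0 := by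
  intro r hr
  cases hr with
  | mul m g h hg hh =>
    rw [map_sub, map_add, autF_of, autF_of, autF_of, map_mul,
      iota_mul (map_mem_gam α hg) (map_mem_gam α hh), sub_self]
  | low m g hg =>
    rw [autF_of]
    exact iota_low (map_mem_gam α hg)
  | junk m g hg =>
    rw [autF_of]
    exact iota_junk (fun hc => hg ((map_mem_gam_iff α).mp hc))

/-- the additive endomorphism of `LL G` induced by an automorphism of `G` -/
noncomputable def autL (α : G ≃* G) : LL G →+ LL G := LLlift (autF α) (autF_rel α)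

theorem autL_iota (α : G ≃* G) (n : ℕ) (g : G) : autL α (iota n g) = iota n (α g) := by
  rw [autL, LLlift_iota, autF_of]

theorem autL_lie (α : G ≃* G) : ∀ x y : LL G, autL α ⁅x, y⁆ = ⁅autL α x, autL α y⁆ := by
  intro x
  refine LL_induction (P := fun x => ∀ y, autL α ⁅x, y⁆ = ⁅autL α x, autL α y⁆) ?_ ?_ ?_ ?_ x
  · intro y; simp
  · intro i g hg y
    refine LL_induction
      (P := fun y => autL α ⁅iota i g, y⁆ = ⁅autL α (iota i g), autL α y⁆) ?_ ?_ ?_ ?_ y
    · simp
    · intro j h hh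
      rw [lie_iota hg hh rfl, autL_iota, autL_iota, autL_iota,
        lie_iota (map_mem_gam α hg) (map_mem_gam α hh) rfl, map_commutatorElement]
    · intro y y' hy hy'
      rw [lie_add, map_add, hy, hy', map_add, lie_add]
    · intro y hy
      rw [lie_neg, map_neg, hy, map_neg, lie_neg]
  · intro x x' hx hx' y
    rw [add_lie, map_add, hx, hx', map_add, add_lie]
  · intro x hx y
    rw [neg_lie, map_neg, hx, map_neg, neg_lie]

theorem autL_prL (α : G ≃* G) (n : ℕ) (x : LL G) : prL n (autL α x) = autL α (prL n x) := by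
  classical
  refine LL_induction (P := fun x => prL n (autL α x) = autL α (prL n x)) ?_ ?_ ?_ ?_ x
  · simp
  · intro m g _
    rw [autL_iota, prL_iota, prL_iota]
    split_ifs
    · rw [autL_iota]
    · rw [map_zero]
  · intro x y hx hy
    simp only [map_add, hx, hy]
  · intro x hx
    simp only [map_neg, hx]

theorem autL_iterate_iota (α : MulAut G) (k n : ℕ) (g : G) :
    (⇑(autL α))^[k] (iota n g) = iota n ((α ^ k) g) := by
  induction k with
  | zero => simp
  | succ k ih =>
    rw [Function.iterate_succ_apply', ih, autL_iota, pow_succ', MulAut.mul_apply]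

theorem autL_per (α : MulAut G) {p : ℕ} (hp : α ^ p = 1) (x : LL G) :
    (⇑(autL α))^[p] x = x := by
  refine LL_induction (P := fun x => (⇑(autL α))^[p] x = x) ?_ ?_ ?_ ?_ x
  · exact iterate_map_zero _ _
  · intro n g _
    rw [autL_iterate_iota, hp, MulAut.one_apply]
  · intro x y hx hy
    rw [iterate_map_add, hx, hy]
  · intro x hx
    rw [iterate_map_neg, hx]

theorem fpf_inj (α : G ≃* G) (hfpf : ∀ g, α g = g → g = 1) {u v : G}
    (h : u⁻¹ * α u = v⁻¹ * α v) : u = v := by
  have h1 : α u = u * (v⁻¹ * α v) := by rw [← h]; group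
  have h2 : α (u * v⁻¹) = u * v⁻¹ := by
    rw [map_mul, map_inv, h1]; group
  exact mul_inv_eq_one.mp (hfpf _ h2)

theorem fpf_mem [Finite G] (α : G ≃* G) (hfpf : ∀ g, α g = g → g = 1) (N : Subgroup G)
    (hN : ∀ g ∈ N, α g ∈ N) {g : G} (h : g⁻¹ * α g ∈ N) : g ∈ N := by
  let f : N → N := fun u => ⟨(u : G)⁻¹ * α u, N.mul_mem (N.inv_mem u.2) (hN u u.2)⟩
  have hinj : Function.Injective f := by
    intro u v huv
    exact Subtype.ext (fpf_inj α hfpf (congrArg Subtype.val huv))
  obtain ⟨u, hu⟩ := Finite.surjective_of_injective hinj ⟨g⁻¹ * α g, h⟩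
  have h1 : (u : G) = g := fpf_inj α hfpf (congrArg Subtype.val hu)
  rw [← h1]
  exact u.2

theorem autL_fpf [Finite G] (α : G ≃* G) (hfpf : ∀ g, α g = g → g = 1) (x : LL G)
    (hx : autL α x = x) : x = 0 := by
  have h1 : ∀ n, prL n x = 0 := by
    intro n
    obtain ⟨g, hg, hgx⟩ := prL_exists n x
    have h2 : autL α (prL n x) = prL n x := by rw [← autL_prL, hx]
    rw [hgx, autL_iota] at h2
    have hαg := map_mem_gam α hg
    have h3 : iota n (g⁻¹ * α g) = 0 := by
      rw [iota_mul (Subgroup.inv_mem _ hg) hαg, iota_inv hg, h2, neg_add_cancel]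
    have h4 := (iota_eq_zero_iff (Subgroup.mul_mem _ (Subgroup.inv_mem _ hg) hαg)).mp h3
    have h5 := fpf_mem α hfpf (gam G (n + 1)) (fun g hg => map_mem_gam α hg) h4
    rw [hgx]
    exact iota_low h5
  obtain ⟨N, hN⟩ := prL_sum x
  rw [hN N le_rfl]
  exact Finset.sum_eq_zero (fun n _ => h1 n)

theorem LL_card_smul [Finite G] (x : LL G) : Nat.card G • x = 0 := by
  refine LL_induction (P := fun x => Nat.card G • x = 0) ?_ ?_ ?_ ?_ x
  · simp
  · intro n g hg
    rw [← iota_pow hg, pow_card_eq_one', iota_one]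
  · intro x y hx hy
    rw [smul_add, hx, hy, add_zero]
  · intro x hx
    rw [smul_neg, hx, neg_zero]

theorem LL_tor [Finite G] {p : ℕ} (hp : (Nat.card G).Coprime p) (x : LL G) (h : p • x = 0) :
    x = 0 := by
  have h1 : (1 : ℤ) = (Nat.card G : ℤ) * Nat.gcdA (Nat.card G) p
      + (p : ℤ) * Nat.gcdB (Nat.card G) p := by
    have h2 := Nat.gcd_eq_gcd_ab (Nat.card G) p
    rw [hp] at h2
    exact_mod_cast h2
  have e1 : ((Nat.card G : ℤ) * Nat.gcdA (Nat.card G) p) • x = 0 := by
    rw [mul_comm, mul_smul, natCast_zsmul, LL_card_smul, smul_zero]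
  have e2 : ((p : ℤ) * Nat.gcdB (Nat.card G) p) • x = 0 := by
    rw [mul_comm, mul_smul, natCast_zsmul, h, smul_zero]
  calc x = (1 : ℤ) • x := (one_zsmul x).symm
    _ = 0 := by rw [h1, add_smul, e1, e2, add_zero]

theorem iota_mem_lcsA : ∀ (c : ℕ) (g : G), g ∈ gam G c →
    iota c g ∈ lcsA (⊤ : AddSubgroup (LL G)) c := by
  intro c
  induction c with
  | zero => intro g _; exact AddSubgroup.mem_top _
  | succ c ih =>
    intro g hg
    have hg' : g ∈ Subgroup.closure
        {x | ∃ a ∈ gam G c, ∃ b ∈ (⊤ : Subgroup G), ⁅a, b⁆ = x} := hg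
    refine (Subgroup.closure_induction
      (p := fun g _ => g ∈ gam G (c + 1) ∧ iota (c + 1) g ∈ lcsA (⊤ : AddSubgroup (LL G)) (c + 1))
      ?_ ?_ ?_ ?_ hg').2
    · rintro x ⟨a, ha, b, _, rfl⟩
      refine ⟨comm_mem_gam_succ ha b, ?_⟩
      have hb0 : b ∈ gam G 0 := Subgroup.mem_top b
      rw [← lie_iota (i := c) (j := 0) (N := c + 1) ha hb0 rfl]
      exact lie_mem_brk (ih a ha) (AddSubgroup.mem_top _)
    · exact ⟨Subgroup.one_mem _, by rw [iota_one]; exact AddSubgroup.zero_mem _⟩
    · rintro x y _ _ ⟨hx, hx'⟩ ⟨hy, hy'⟩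
      exact ⟨Subgroup.mul_mem _ hx hy, by
        rw [iota_mul hx hy]; exact AddSubgroup.add_mem _ hx' hy'⟩
    · rintro x _ ⟨hx, hx'⟩
      exact ⟨Subgroup.inv_mem _ hx, by rw [iota_inv hx]; exact AddSubgroup.neg_mem _ hx'⟩

theorem gam_le_of_lcsA (c : ℕ) (h : lcsA (⊤ : AddSubgroup (LL G)) c = ⊥) :
    gam G c ≤ gam G (c + 1) := by
  intro g hg
  have h1 := iota_mem_lcsA c g hg
  rw [h, AddSubgroup.mem_bot] at h1
  exact (iota_eq_zero_iff hg).mp h1

theorem gam_eq_bot_of_le [hn : Group.IsNilpotent G] (c : ℕ) (h : gam G c ≤ gam G (c + 1)) :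
    gam G c = ⊥ := by
  have h1 : ∀ m, gam G c ≤ gam G m := by
    intro m
    induction m with
    | zero => exact le_top
    | succ m ih => exact h.trans (Subgroup.commutator_mono ih le_rfl)
  obtain ⟨m, hm⟩ := Subgroup.nilpotent_iff_lowerCentralSeries.mp hn
  rw [eq_bot_iff, ← hm]
  exact h1 m

/-- **Lie ring method**: if the Lie ring of the lower central series of a nilpotent group is
nilpotent of class `≤ c`, so is the group. -/
theorem gam_eq_bot_of_lcsA [Group.IsNilpotent G] (c : ℕ)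
    (h : lcsA (⊤ : AddSubgroup (LL G)) c = ⊥) : gam G c = ⊥ :=
  gam_eq_bot_of_le c (gam_le_of_lcsA c h)

end LLstructure

end Cfsg.Agent.Lib.Helper34
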