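import Mathlib
import Cfsg.Prelude.Def_Transfer
import Cfsg.Prelude.Def_CaseTheorems
import Cfsg.Prelude.Def_LocalEven
import Cfsg.Agent.Lib.Helper34.TwoF
import Cfsg.Agent.Lib.Helper55.Cores
import Cfsg.Agent.S0444

/-!
# A small module forces an `S₃` section (statement S3755)
-/

set_option autoImplicit false
set_option linter.style.haveILetI false

namespace Cfsg.Agent.Lib.Helper34

open Subgroup
open scoped IsMulCommutative

/-- An involution inverting an element of order three generates with it a copy of `S₃`. -/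
theorem involves_s3_of_inverted {M : Type*} [Group M] (a k : M) (ha : a * a = 1)
    (hk : orderOf k = 3) (hak : a * k * a⁻¹ = k⁻¹) : Cfsg.Involves (Equiv.Perm (Fin 3)) M := by
  have hk3 : k ^ 3 = 1 := by rw [← hk]; exact pow_orderOf_eq_one k
  have hk1 : k ≠ 1 := by
    intro h
    rw [h, orderOf_one] at hk
    exact absurd hk (by norm_num)
  have hainv : a⁻¹ = a := inv_eq_of_mul_eq_one_left ha
  have hkk : k * k ≠ 1 := by
    intro h
    apply hk1
    calc k = k ^ 3 * (k * k)⁻¹ := by group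
      _ = 1 := by rw [hk3, h, inv_one, mul_one]
  have hk_ne_inv : k ≠ k⁻¹ := fun h => hkk (mul_eq_one_iff_eq_inv.mpr h)
  have hak' : a * k * a = k⁻¹ := by
    have h := hak
    rw [hainv] at h
    exact h
  have ha1 : a ≠ 1 := by
    intro h
    rw [h, one_mul, mul_one] at hak'
    exact hk_ne_inv hak'
  have hak2 : (a * k) * (a * k) = 1 := by
    calc (a * k) * (a * k) = (a * k * a) * k := by group
      _ = 1 := by rw [hak', inv_mul_cancel]
  have hak1 : a * k ≠ 1 := by
    intro h
    have h1 : k = a := by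
      calc k = a⁻¹ * (a * k) := by group
        _ = a := by rw [h, mul_one, hainv]
    exact hkk (by rw [h1]; exact ha)
  have hE : Cfsg.IsThreeTranspositionSet ({a, a * k} : Set M) := by
    refine ⟨?_, ?_⟩
    · intro d hd
      rcases hd with rfl | hd
      · exact orderOf_eq_prime (by rw [pow_two]; exact ha) ha1
      · rw [Set.mem_singleton_iff] at hd
        rw [hd]
        exact orderOf_eq_prime (by rw [pow_two]; exact hak2) hak1
    · intro d hd e he
      rcases hd with rfl | hd <;> rcases he with rfl | he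
      · left; rw [ha, one_pow]
      · rw [Set.mem_singleton_iff] at he
        right
        rw [he, ← mul_assoc, ha, one_mul]
        exact hk3
      · rw [Set.mem_singleton_iff] at hd
        right
        rw [hd, hak', inv_pow, hk3, inv_one]
      · rw [Set.mem_singleton_iff] at hd he
        left
        rw [hd, he, hak2, one_pow]
  have hnc : ¬ Commute a (a * k) := by
    intro h
    have h1 : a * (a * k) = a * k * a := h
    rw [← mul_assoc, ha, one_mul] at h1
    exact hk_ne_inv (h1.trans hak')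
  obtain ⟨e⟩ := Cfsg.Agent.S0444.result hE (Set.mem_insert _ _)
    (Set.mem_insert_of_mem _ (Set.mem_singleton _)) hnc
  exact involves_of_subgroup_hom _ e.toMonoidHom e.surjective

/-- **S3755.** -/
theorem involves_s3_of_small_module {X : Type*} [Group X] [Finite X] (M V : Subgroup X)
    (hV : Cfsg.IsElementaryAbelian 2 V) (hMV : M ≤ normalizer (V : Set X))
    (hfaith : M ⊓ centralizer (V : Set X) = ⊥)
    (hcon : centralizer (Cfsg.pPrimeCore 2 ↥M : Set ↥M) ≤ Cfsg.pPrimeCore 2 ↥M)
    (A : Subgroup X) (hAM : A ≤ M) (hA : Cfsg.IsElementaryAbelian 2 A)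
    (hsmall : (V ⊓ centralizer (A : Set X)).relIndex V < Nat.card A ^ 2) :
    Cfsg.Involves (Equiv.Perm (Fin 3)) ↥M := by
  classical
  by_contra hS3
  haveI : IsMulCommutative V := hV.1
  have hV2 : ∀ v : V, v ^ 2 = 1 := fun v => Subtype.ext (hV.2 v v.2)
  let ρ : M →* MulAut V := V.normalizerMonoidHom.comp (Subgroup.inclusion hMV)
  have hρ : ∀ (m : M) (v : V), ((ρ m v : V) : X) = (m : X) * v * (m : X)⁻¹ := fun m v => rfl
  have hρinj : Function.Injective ρ := by
    rw [injective_iff_map_eq_one]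
    intro m hm
    have h1 : (m : X) ∈ M ⊓ centralizer (V : Set X) := by
      refine Subgroup.mem_inf.mpr ⟨m.2, ?_⟩
      rw [mem_centralizer_iff]
      intro v hv
      have h2 : (m : X) * v * (m : X)⁻¹ = v := by
        have h3 := congrArg (fun g : MulAut V => ((g ⟨v, hv⟩ : V) : X)) hm
        exact h3
      calc v * (m : X) = ((m : X) * v * (m : X)⁻¹) * m := by rw [h2]
        _ = m * v := by group
    rw [hfaith, Subgroup.mem_bot] at h1
    exact Subtype.ext h1
  obtain ⟨K₀, hK₀def⟩ : ∃ K₀ : Subgroup M, K₀ = Cfsg.pPrimeCore 2 ↥M := ⟨_, rfl⟩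
  have hK₀n : K₀.Normal := by rw [hK₀def]; infer_instance
  have hK₀c : (Nat.card K₀).Coprime 2 := by
    rw [hK₀def]
    exact Cfsg.Agent.Lib.Helper55.pPrimeCore_coprime 2 M
  rw [← hK₀def] at hcon
  have hK₀odd : ¬ 2 ∣ Nat.card K₀ := by
    intro h
    have h1 := Nat.eq_one_of_dvd_coprimes hK₀c h (dvd_refl 2)
    omega
  have hAcomm : ∀ a ∈ A, ∀ b ∈ A, a * b = b * a := fun a ha b hb => by
    haveI := hA.1
    exact setLike_mul_comm ha hb
  have hA2 : ∀ a ∈ A, a * a = 1 := fun a ha => by rw [← pow_two]; exact hA.2 a ha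
  let A₀ : Subgroup M := A.subgroupOf M
  let K' : Subgroup (MulAut V) := K₀.map ρ
  let A' : Subgroup (MulAut V) := A₀.map ρ
  have hK'odd : ¬ 2 ∣ Nat.card K' := by
    rw [Subgroup.card_map_of_injective hρinj]
    exact hK₀odd
  have hA'K' : A' ≤ normalizer (K' : Set (MulAut V)) := by
    rintro _ ⟨a, ha, rfl⟩
    apply mem_normalizer_fintype
    rintro _ ⟨k, hk, rfl⟩
    refine ⟨a * k * a⁻¹, hK₀n.conj_mem k hk a, ?_⟩
    simp only [map_mul, map_inv]
  have hA'2 : ∀ a ∈ A', a * a = 1 := by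
    rintro _ ⟨a, ha, rfl⟩
    rw [← map_mul]
    have h1 : a * a = 1 := Subtype.ext (hA2 a (mem_subgroupOf.mp ha))
    rw [h1, map_one]
  have hA'c : ∀ a ∈ A', ∀ b ∈ A', a * b = b * a := by
    rintro _ ⟨a, ha, rfl⟩ _ ⟨b, hb, rfl⟩
    rw [← map_mul, ← map_mul]
    congr 1
    exact Subtype.ext (hAcomm a (mem_subgroupOf.mp ha) b (mem_subgroupOf.mp hb))
  have hno3 : ∀ a ∈ A', ∀ x ∈ K', orderOf x = 3 → a * x * a⁻¹ ≠ x⁻¹ := by
    rintro _ ⟨a, ha, rfl⟩ _ ⟨k, hk, rfl⟩ hord hinv
    apply hS3
    have hk3 : orderOf k = 3 := by rw [← hord]; exact (orderOf_injective ρ hρinj k).symm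
    have hak : a * k * a⁻¹ = k⁻¹ := by
      apply hρinj
      rw [map_mul, map_mul, map_inv, map_inv]
      exact hinv
    have haa : a * a = 1 := Subtype.ext (hA2 a (mem_subgroupOf.mp ha))
    exact involves_s3_of_inverted a k haa hk3 hak
  have hmain := card_sq_mul_card_fixedOf_le hV2 K' hK'odd (Nat.card A') A' rfl hA'K' hA'2 hA'c
    hno3
  have hbot : A' ⊓ centralizer (K' : Set (MulAut V)) = ⊥ := by
    rw [eq_bot_iff]
    rintro _ ⟨⟨a, ha, rfl⟩, hcen⟩
    rw [Subgroup.mem_bot]
    have haK : a ∈ centralizer (K₀ : Set M) := by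
      rw [mem_centralizer_iff]
      intro k hk
      apply hρinj
      rw [map_mul, map_mul]
      exact mem_centralizer_iff.mp hcen (ρ k) ⟨k, hk, rfl⟩
    have haK₀ : a ∈ K₀ := hcon haK
    have haa : a * a = 1 := Subtype.ext (hA2 a (mem_subgroupOf.mp ha))
    have h1 : orderOf a ∣ 2 := orderOf_dvd_of_pow_eq_one (by rw [pow_two]; exact haa)
    have h2 : orderOf a ∣ Nat.card K₀ := Subgroup.orderOf_dvd_natCard K₀ haK₀
    have h3 : orderOf a = 1 := Nat.eq_one_of_dvd_coprimes hK₀c h2 h1
    rw [orderOf_eq_one_iff.mp h3, map_one]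
  rw [hbot, Subgroup.card_bot, one_pow, mul_one] at hmain
  have hcardA : Nat.card A' = Nat.card A := by
    rw [Subgroup.card_map_of_injective hρinj]
    exact Nat.card_congr (Subgroup.subgroupOfEquivOfLe hAM).toEquiv
  have hfixle : Nat.card ↥(V ⊓ centralizer (A : Set X)) ≤ Nat.card (fixedOf A') := by
    have hle : V ⊓ centralizer (A : Set X) ≤ (fixedOf A').map V.subtype := by
      intro v hv
      obtain ⟨hvV, hvC⟩ := Subgroup.mem_inf.mp hv
      refine ⟨⟨v, hvV⟩, ?_, rfl⟩
      rintro _ ⟨a, ha, rfl⟩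
      apply Subtype.ext
      rw [hρ]
      show (a : X) * v * (a : X)⁻¹ = v
      have h3 : (a : X) * v = v * (a : X) := mem_centralizer_iff.mp hvC a (mem_subgroupOf.mp ha)
      rw [h3]
      group
    calc Nat.card ↥(V ⊓ centralizer (A : Set X))
        ≤ Nat.card ↥((fixedOf A').map V.subtype) := Subgroup.card_le_of_le hle
      _ = Nat.card (fixedOf A') := Subgroup.card_map_of_injective V.subtype_injective
  have hrel : (V ⊓ centralizer (A : Set X)).relIndex V *
      Nat.card ↥(V ⊓ centralizer (A : Set X)) = Nat.card V := by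
    have h1 := Subgroup.card_mul_index ((V ⊓ centralizer (A : Set X)).subgroupOf V)
    have h2 : Nat.card ((V ⊓ centralizer (A : Set X)).subgroupOf V) =
        Nat.card ↥(V ⊓ centralizer (A : Set X)) :=
      Nat.card_congr (Subgroup.subgroupOfEquivOfLe inf_le_left).toEquiv
    rw [h2] at h1
    rw [mul_comm]
    exact h1
  have hpos : 0 < Nat.card ↥(V ⊓ centralizer (A : Set X)) := Nat.card_pos
  have h5 : Nat.card A ^ 2 * Nat.card ↥(V ⊓ centralizer (A : Set X)) ≤
      (V ⊓ centralizer (A : Set X)).relIndex V * Nat.card ↥(V ⊓ centralizer (A : Set X)) := by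
    rw [hrel, ← hcardA]
    exact (Nat.mul_le_mul_left _ hfixle).trans hmain
  have h6 := Nat.le_of_mul_le_mul_right h5 hpos
  omega

end Cfsg.Agent.Lib.Helper34
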